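import Cfsg.Agent.Lib.ConjFunctor.Reduce
import Cfsg.Agent.Lib.NormalPComplement.GlaubermanThompson

/-!
Helpers for the failure of `Z(J(S))` to control strong fusion: fusion induced by `H`, the Frattini
argument inside subgroups, and generation by `p'`-elements and one Sylow subgroup.
-/

set_option autoImplicit false
set_option linter.style.haveILetI false

namespace CfsgLib.ZJFailure

open CfsgLib.ConjFunctor

variable {G : Type*} [Group G]

/-- The map induced by `g` on `P` is induced by an element of `H`. -/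
def Rl (H : Subgroup G) (g : G) (P : Subgroup G) : Prop :=
  ∃ h ∈ H, ∀ x ∈ P, h * x * h⁻¹ = g * x * g⁻¹

variable {H P : Subgroup G} {g : G}

theorem Rl.of_mem (hg : g ∈ H) : Rl H g P := ⟨g, hg, fun _ _ => rfl⟩

theorem Rl.mono {P' : Subgroup G} (h : Rl H g P) (hP : P' ≤ P) : Rl H g P' := by
  obtain ⟨x, hx, hx'⟩ := h
  exact ⟨x, hx, fun y hy => hx' y (hP hy)⟩

theorem Rl.mul {g' : G} (h : Rl H g P) (h' : Rl H g' (cj g P)) : Rl H (g' * g) P := by
  obtain ⟨x, hx, hx'⟩ := h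
  obtain ⟨y, hy, hy'⟩ := h'
  refine ⟨y * x, H.mul_mem hy hx, fun a ha => ?_⟩
  calc y * x * a * (y * x)⁻¹ = y * (x * a * x⁻¹) * y⁻¹ := by group
    _ = g' * (g * a * g⁻¹) * g'⁻¹ := by rw [hx' a ha, hy' _ (conj_mem_cj ha)]
    _ = g' * g * a * (g' * g)⁻¹ := by group

theorem Rl.inv (h : Rl H g P) : Rl H g⁻¹ (cj g P) := by
  obtain ⟨x, hx, hx'⟩ := h
  refine ⟨x⁻¹, H.inv_mem hx, fun a ha => ?_⟩
  have h1 := hx' _ (mem_cj.1 ha)
  calc x⁻¹ * a * x⁻¹⁻¹ = x⁻¹ * (g * (g⁻¹ * a * g) * g⁻¹) * x := by group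
    _ = x⁻¹ * (x * (g⁻¹ * a * g) * x⁻¹) * x := by rw [h1]
    _ = g⁻¹ * a * g⁻¹⁻¹ := by group

theorem Rl.of_agree {g' : G} (h : Rl H g P) (he : ∀ x ∈ P, g' * x * g'⁻¹ = g * x * g⁻¹) :
    Rl H g' P := by
  obtain ⟨x, hx, hx'⟩ := h
  exact ⟨x, hx, fun y hy => (hx' y hy).trans (he y hy).symm⟩

theorem Rl.of_centralizer (hg : g ∈ Subgroup.centralizer (P : Set G)) : Rl H g P :=
  ⟨1, H.one_mem, fun x hx => by
    rw [← Subgroup.mem_centralizer_iff.1 hg x hx]
    group⟩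

/-- A set of conjugates contained in the subgroup forces normalization. -/
theorem mem_normalizer_of_conj_le [Finite G] {Y : Subgroup G} {k : G}
    (h : ∀ y ∈ Y, k * y * k⁻¹ ∈ Y) : k ∈ Subgroup.normalizer (Y : Set G) :=
  CoprimeAction.mem_normalizer_of_conj_mem h

theorem conj_mem_of_normalizer {Y : Subgroup G} {k y : G}
    (hk : k ∈ Subgroup.normalizer (Y : Set G)) (hy : y ∈ Y) : k * y * k⁻¹ ∈ Y :=
  (Subgroup.mem_normalizer_iff.1 hk y).1 hy

variable {p : ℕ} [Fact p.Prime] [Finite G]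

/-- The Frattini argument for a subgroup `L` normalizing `K`. -/
theorem exists_frattini {K L T : Subgroup G} (hKL : K ≤ L)
    (hn : L ≤ Subgroup.normalizer (K : Set G)) (hT : IsPGroup p T) (hTK : T ≤ K)
    (hidx : ¬ p ∣ T.relIndex K) {m : G} (hm : m ∈ L) :
    ∃ c ∈ K, ∃ n ∈ L ⊓ Subgroup.normalizer (T : Set G), m = c * n := by
  have h1 : cj m T ≤ K := (cj_mono m hTK).trans_eq (cj_eq_self_iff.2 (hn hm))
  have h2 : ¬ p ∣ (cj m T).relIndex K := by
    have := not_dvd_relIndex_cj hidx m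
    rwa [cj_eq_self_iff.2 (hn hm)] at this
  obtain ⟨c, hc, hcT⟩ := exists_cj_eq hT hTK hidx (isPGroup_cj hT m) h1 h2
  refine ⟨c, hc, c⁻¹ * m, ⟨L.mul_mem (L.inv_mem (hKL hc)) hm, cj_eq_self_iff.1 ?_⟩,
    (mul_inv_cancel_left c m).symm⟩
  rw [cj_mul, ← hcT, cj_inv_cj]

/-- The elements of order prime to `p` of a subgroup. -/
def pPrimeElts (p : ℕ) (U : Subgroup G) : Subgroup G :=
  Subgroup.closure {u | u ∈ U ∧ (orderOf u).Coprime p}

omit [Fact p.Prime] [Finite G] in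
theorem pPrimeElts_le (U : Subgroup G) : pPrimeElts p U ≤ U :=
  (Subgroup.closure_le _).2 fun _ hu => hu.1

omit [Fact p.Prime] [Finite G] in
theorem le_normalizer_pPrimeElts (U : Subgroup G) :
    U ≤ Subgroup.normalizer (pPrimeElts p U : Set G) := by
  have key : ∀ {u}, u ∈ U → ∀ x ∈ pPrimeElts p U, u * x * u⁻¹ ∈ pPrimeElts p U := by
    intro u hu x hx
    induction hx using Subgroup.closure_induction with
    | mem y hy =>
      refine Subgroup.subset_closure ⟨U.mul_mem (U.mul_mem hu hy.1) (U.inv_mem hu), ?_⟩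
      rw [show orderOf (u * y * u⁻¹) = orderOf y from (MulAut.conj u).orderOf_eq y]
      exact hy.2
    | one => simp
    | mul a b _ _ iha ihb =>
      rw [← conj_mul]
      exact mul_mem iha ihb
    | inv a _ iha =>
      rw [← conj_inv]
      exact inv_mem iha
  intro u hu
  refine Subgroup.mem_normalizer_iff.2 fun x => ⟨key hu x, fun hx => ?_⟩
  have := key (U.inv_mem hu) _ hx
  rwa [show u⁻¹ * (u * x * u⁻¹) * u⁻¹⁻¹ = x by group] at this

/-- A subgroup is generated by its `p'`-elements and any one of its Sylow `p`-subgroups. -/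
theorem le_pPrimeElts_sup {U T : Subgroup G} (hTU : T ≤ U) (hidx : ¬ p ∣ T.relIndex U) :
    U ≤ pPrimeElts p U ⊔ T := by
  obtain ⟨O, hO⟩ : ∃ O, O = pPrimeElts p U := ⟨_, rfl⟩
  haveI : (O.subgroupOf U).Normal :=
    Subgroup.normal_subgroupOf_of_le_normalizer (hO ▸ le_normalizer_pPrimeElts U)
  have hq : IsPGroup p (U ⧸ O.subgroupOf U) := by
    intro x
    obtain ⟨u, rfl⟩ := QuotientGroup.mk_surjective x
    obtain ⟨e, he⟩ := NormalPComplement.exists_pow_coprime_orderOf (p := p)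
      (isOfFinOrder_of_finite u)
    refine ⟨e, (QuotientGroup.eq_one_iff (u ^ p ^ e)).2 ?_⟩
    rw [Subgroup.mem_subgroupOf, hO]
    refine Subgroup.subset_closure ⟨(u ^ p ^ e).2, ?_⟩
    rwa [Subgroup.orderOf_coe]
  obtain ⟨k, hk⟩ := IsPGroup.iff_card.1 hq
  have hk' : O.relIndex U = p ^ k := by
    rw [← hk]; rfl
  have h1 : (O ⊔ T).relIndex U ∣ p ^ k := hk' ▸ Subgroup.relIndex_dvd_of_le_left U le_sup_left
  have h2 : (O ⊔ T).relIndex U ∣ T.relIndex U := Subgroup.relIndex_dvd_of_le_left U le_sup_right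
  rw [← hO, ← Subgroup.relIndex_eq_one]
  obtain ⟨j, -, hj⟩ := (Nat.dvd_prime_pow (Fact.out : p.Prime)).1 h1
  rcases j with - | j
  · rw [hj, pow_zero]
  · exact absurd ((dvd_pow_self p (Nat.succ_ne_zero j)).trans (hj ▸ h2)) hidx

end CfsgLib.ZJFailure
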