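import Cfsg.Agent.Lib.ZJFailure.Torus
import Cfsg.Agent.Lib.Amalgams.Qd
import Cfsg.Agent.Lib.Amalgams.Involves

/-!
A unipotent element and a torus element acting naturally on a subgroup of order `p²` give a
section `F(p)` (`p` odd): the involution `-1` of the Borel subgroup splits the extension.
-/

set_option autoImplicit false
set_option linter.style.haveILetI false

open Matrix
open scoped MatrixGroups

namespace CfsgLib.ZJFailure

open Cfsg CfsgLib.Amalgams.Qd
open CfsgLib.ClassicalLinear (upS upS_coe)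

universe u

section FOver

variable {F : Type*} [Field F]

/-- The upper triangular subgroup of `SL₂`. -/
def borelS : Subgroup SL(2, F) where
  carrier := {A | (A : Matrix (Fin 2) (Fin 2) F) 1 0 = 0}
  one_mem' := by simp
  mul_mem' := fun {A B} hA hB => by
    show ((A * B : SL(2, F)) : Matrix (Fin 2) (Fin 2) F) 1 0 = 0
    rw [Matrix.SpecialLinearGroup.coe_mul, Matrix.mul_apply, Fin.sum_univ_two,
      show (A : Matrix (Fin 2) (Fin 2) F) 1 0 = 0 from hA,
      show (B : Matrix (Fin 2) (Fin 2) F) 1 0 = 0 from hB]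
    ring
  inv_mem' := fun {A} hA => by
    show ((A⁻¹ : SL(2, F)) : Matrix (Fin 2) (Fin 2) F) 1 0 = 0
    rw [Matrix.SpecialLinearGroup.coe_inv, Matrix.adjugate_fin_two]
    simpa using hA

theorem mem_borelS {A : SL(2, F)} :
    A ∈ borelS ↔ (A : Matrix (Fin 2) (Fin 2) F) 1 0 = 0 := Iff.rfl

theorem aff_mem_fOver {A : SL(2, F)} (hA : A ∈ borelS) (c f : F) :
    ((aff A c f : qdOver F) : SL(3, F)) ∈ fOver F :=
  Subgroup.subset_closure ⟨by rw [coe_aff]; simpa using mem_borelS.1 hA, by rw [coe_aff]; rfl,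
    by rw [coe_aff]; rfl, by rw [coe_aff]; rfl⟩

theorem exists_aff_eq (M : fOver F) :
    ∃ A c f, A ∈ borelS ∧ (M : SL(3, F)) = ((aff A c f : qdOver F) : SL(3, F)) := by
  obtain ⟨M, hM⟩ := M
  have h : M ∈ qdOver F ∧ (M : Matrix (Fin 3) (Fin 3) F) 1 0 = 0 := by
    unfold fOver at hM
    induction hM using Subgroup.closure_induction with
    | mem t ht => exact ⟨Subgroup.subset_closure ⟨ht.2.1, ht.2.2⟩, ht.1⟩
    | one => exact ⟨one_mem _, by simp⟩
    | mul u v _ _ hu hv =>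
      refine ⟨mul_mem hu.1 hv.1, ?_⟩
      simp [Matrix.mul_apply, Fin.sum_univ_three, hu.2, hv.2, ((mem_qdOver_iff _).1 hv.1).1]
    | inv u _ hu =>
      refine ⟨inv_mem hu.1, ?_⟩
      obtain ⟨A, c, f, hA⟩ := exists_eq_aff (⟨u, hu.1⟩ : qdOver F)
      have hAB : A ∈ borelS := by
        have h' := hu.2
        rw [show u = ((aff A c f : qdOver F) : SL(3, F)) from congrArg Subtype.val hA, coe_aff] at h'
        rw [mem_borelS]
        simpa using h'
      obtain ⟨A', c', f', hA'⟩ := exists_eq_aff (⟨u, hu.1⟩⁻¹ : qdOver F)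
      have hmul := congrArg (fun z : qdOver F => lin z) hA
      have hmul' := congrArg (fun z : qdOver F => lin z) hA'
      simp only [map_inv, lin_aff] at hmul hmul'
      rw [hmul] at hmul'
      rw [show u⁻¹ = ((aff A' c' f' : qdOver F) : SL(3, F)) from congrArg Subtype.val hA', coe_aff]
      simpa using mem_borelS.1 (show A' ∈ borelS from hmul' ▸ inv_mem hAB)
  obtain ⟨A, c, f, hA⟩ := exists_eq_aff (⟨M, h.1⟩ : qdOver F)
  have hA' : M = ((aff A c f : qdOver F) : SL(3, F)) := congrArg Subtype.val hA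
  refine ⟨A, c, f, ?_, hA'⟩
  have h2 := h.2
  rw [hA', coe_aff] at h2
  show (A : Matrix (Fin 2) (Fin 2) F) 1 0 = 0
  simpa using h2

end FOver

variable {X : Type u} [Group X] [Finite X] {p : ℕ} [hp : Fact p.Prime]

/-- A unipotent element and a torus element on `⟨x, y⟩ ≅ (ℤ/p)²` make `F(p)` involved. -/
theorem involves_fOver_of_natural_pair (hp2 : p ≠ 2) {g c x y : X} (hxy : Commute x y)
    (hx : x ^ p = 1) (hy : y ^ p = 1) (hx1 : x ≠ 1) (hyx : y ∉ Subgroup.zpowers x)
    (hgx : g * x * g⁻¹ = x) (hgy : g * y * g⁻¹ = x * y)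
    {e : (ZMod p)ˣ} (he : ∀ z : (ZMod p)ˣ, z ∈ Subgroup.zpowers e)
    (hcx : c * x * c⁻¹ = x ^ (e : ZMod p).val)
    (hcy : c * y * c⁻¹ = y ^ ((e⁻¹ : (ZMod p)ˣ) : ZMod p).val) :
    Involves ↥(fOver (ZMod p)) X := by
  classical
  haveI : NeZero p := ⟨hp.out.ne_zero⟩
  have hpow : ∀ {t : X}, t ^ p = 1 → ∀ a b : ZMod p, t ^ (a + b).val = t ^ a.val * t ^ b.val := by
    intro t ht a b
    rw [ZMod.val_add, ← pow_add]
    exact (pow_eq_pow_mod _ ht).symm
  let w : (Fin 2 → ZMod p) → X := fun v => x ^ (v 0).val * y ^ (v 1).val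
  have hwadd : ∀ u v, w (u + v) = w u * w v := by
    intro u v
    show x ^ (u 0 + v 0).val * y ^ (u 1 + v 1).val = _
    rw [hpow hx, hpow hy]
    exact (hxy.pow_pow _ _).mul_mul_mul_comm _ _
  have hw0 : w 0 = 1 := by simp [w]
  have hwneg : ∀ v, w (-v) = (w v)⁻¹ := fun v =>
    eq_inv_of_mul_eq_one_left (by rw [← hwadd, neg_add_cancel, hw0])
  have hwinj0 : ∀ v, w v = 1 → v = 0 := by
    intro v hv
    have h1 : (v 1).val = 0 := by
      by_contra h1
      have hcop : ((v 1).val).Coprime (orderOf y) := by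
        rw [orderOf_eq_prime hy fun h => hyx (h ▸ one_mem _)]
        exact ((hp.out.coprime_iff_not_dvd).2 fun h =>
          absurd (Nat.le_of_dvd (Nat.pos_of_ne_zero h1) h) (not_le.2 (ZMod.val_lt _))).symm
      obtain ⟨m, hm⟩ := exists_pow_eq_self_of_coprime hcop
      refine hyx (hm ▸ pow_mem ?_ m)
      rw [show y ^ (v 1).val = (x ^ (v 0).val)⁻¹ from eq_inv_of_mul_eq_one_right hv]
      exact inv_mem (Subgroup.npow_mem_zpowers _ _)
    have h0 : (v 0).val = 0 := by
      have hv' : x ^ (v 0).val = 1 := by simpa [w, h1] using hv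
      have := Nat.eq_zero_of_dvd_of_lt (orderOf_dvd_of_pow_eq_one hv')
        (by rw [orderOf_eq_prime hx hx1]; exact ZMod.val_lt _)
      exact this
    funext i
    fin_cases i
    · exact (ZMod.val_eq_zero _).1 h0
    · exact (ZMod.val_eq_zero _).1 h1
  have hwinj : Function.Injective w := fun u v h => by
    have : w (u + -v) = 1 := by rw [hwadd, hwneg, h, mul_inv_cancel]
    exact add_neg_eq_zero.1 (hwinj0 _ this)
  -- pairs acting compatibly
  let M : Subgroup (X × SL(2, ZMod p)) :=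
    { carrier := {q | ∀ v, q.1 * w v * q.1⁻¹ = w ((q.2 : Matrix (Fin 2) (Fin 2) (ZMod p)).mulVec v)}
      one_mem' := fun v => by simp
      mul_mem' := fun {q r} hq hr v => by
        show q.1 * r.1 * w v * (q.1 * r.1)⁻¹ = w ((q.2 * r.2).1.mulVec v)
        rw [Matrix.SpecialLinearGroup.coe_mul, ← Matrix.mulVec_mulVec, ← hq, ← hr]
        group
      inv_mem' := fun {q} hq v => by
        show q.1⁻¹ * w v * q.1⁻¹⁻¹ = w ((q.2⁻¹).1.mulVec v)
        have h := hq ((q.2⁻¹).1.mulVec v)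
        rw [Matrix.mulVec_mulVec, ← Matrix.SpecialLinearGroup.coe_mul, mul_inv_cancel,
          Matrix.SpecialLinearGroup.coe_one, Matrix.one_mulVec] at h
        rw [← h]
        group }
  have hgM : (g, upS (1 : ZMod p)) ∈ M := by
    intro v
    show g * (x ^ (v 0).val * y ^ (v 1).val) * g⁻¹ = _
    rw [show g * (x ^ (v 0).val * y ^ (v 1).val) * g⁻¹ =
        (g * x * g⁻¹) ^ (v 0).val * (g * y * g⁻¹) ^ (v 1).val by
      rw [conj_pow, conj_pow]; group, hgx, hgy, hxy.mul_pow, ← mul_assoc, ← hpow hx]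
    simp [w, upS_coe, Matrix.mulVec, dotProduct]
  have hpow' : ∀ {t : X}, t ^ p = 1 → ∀ a b : ZMod p, (t ^ a.val) ^ b.val = t ^ (a * b).val := by
    intro t ht a b
    rw [ZMod.val_mul, ← pow_mul]
    exact pow_eq_pow_mod _ ht
  have hcM : (c, torusS e) ∈ M := by
    intro v
    show c * (x ^ (v 0).val * y ^ (v 1).val) * c⁻¹ = _
    rw [show c * (x ^ (v 0).val * y ^ (v 1).val) * c⁻¹ =
        (c * x * c⁻¹) ^ (v 0).val * (c * y * c⁻¹) ^ (v 1).val by
      rw [conj_pow, conj_pow]; group, hcx, hcy, hpow' hx, hpow' hy]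
    simp only [w]
    rw [torusS_coe]
    simp only [Matrix.mulVec, dotProduct, Fin.sum_univ_two, Matrix.of_apply, Matrix.cons_val',
      Matrix.cons_val_zero, Matrix.cons_val_one, Matrix.empty_val', Matrix.cons_val_fin_one,
      zero_mul, add_zero, zero_add]
  let π2 : M →* SL(2, ZMod p) := (MonoidHom.snd X _).comp M.subtype
  have hπ2 : borelS ≤ π2.range := by
    intro A hA
    have hA0 : (A : Matrix (Fin 2) (Fin 2) (ZMod p)) 1 0 = 0 := hA
    have hdet := CfsgLib.SL2.det_eq A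
    rw [hA0, mul_zero, sub_zero] at hdet
    let u : (ZMod p)ˣ := ⟨(A : Matrix (Fin 2) (Fin 2) (ZMod p)) 0 0,
      (A : Matrix (Fin 2) (Fin 2) (ZMod p)) 1 1, hdet, by rw [mul_comm]; exact hdet⟩
    have hAe : A = torusS u * upS ((A : Matrix (Fin 2) (Fin 2) (ZMod p)) 1 1 *
        (A : Matrix (Fin 2) (Fin 2) (ZMod p)) 0 1) := by
      apply Subtype.ext
      rw [Matrix.SpecialLinearGroup.coe_mul, torusS_coe, upS_coe]
      ext i j
      fin_cases i <;> fin_cases j <;>
        simp [Matrix.mul_apply, Fin.sum_univ_two, u, hA0, ← mul_assoc, hdet]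
    rw [hAe]
    refine mul_mem ?_ ?_
    · obtain ⟨k, hk⟩ := he u
      rw [← hk, map_zpow]
      exact zpow_mem (show torusS e ∈ π2.range from ⟨⟨_, hcM⟩, rfl⟩) k
    · obtain ⟨k, hk⟩ := ZMod.natCast_zmod_surjective ((A : Matrix (Fin 2) (Fin 2) (ZMod p)) 1 1 *
        (A : Matrix (Fin 2) (Fin 2) (ZMod p)) 0 1)
      rw [← hk, ← mul_one ((k : ℕ) : ZMod p), CfsgLib.SL2.Dickson.upS_nsmul]
      exact pow_mem (show upS (1 : ZMod p) ∈ π2.range from ⟨⟨_, hgM⟩, rfl⟩) k
  have hnegB : (-1 : SL(2, ZMod p)) ∈ borelS := by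
    show ((-1 : SL(2, ZMod p)) : Matrix (Fin 2) (Fin 2) (ZMod p)) 1 0 = 0
    simp
  -- the normalizer of a `2`-group over `-1` is a complement
  let Z : Subgroup SL(2, ZMod p) := Subgroup.zpowers (-1)
  haveI : Z.Normal := ⟨fun n hn h => by
    have hcen : n ∈ Subgroup.center SL(2, ZMod p) :=
      (Subgroup.zpowers_le.2 CfsgLib.SL2.neg_one_mem_center) hn
    rw [Subgroup.mem_center_iff.1 hcen h, mul_inv_cancel_right]
    exact hn⟩
  haveI : Fact (Nat.Prime 2) := ⟨Nat.prime_two⟩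
  obtain ⟨T⟩ : Nonempty (Sylow 2 (Z.comap π2)) := inferInstance
  let T' : Subgroup M := (T : Subgroup (Z.comap π2)).map (Z.comap π2).subtype
  let N : Subgroup M := Subgroup.normalizer (T' : Set M)
  have hZT : Z ≤ T'.map π2 := by
    let π' : ↥(Z.comap π2) →* ↥Z := π2.subgroupComap Z
    have hsurj : Function.Surjective π' := by
      rintro ⟨a, ha⟩
      obtain ⟨m, rfl⟩ : a ∈ π2.range := hπ2 ((Subgroup.zpowers_le.2 hnegB) ha)
      exact ⟨⟨m, ha⟩, rfl⟩
    have hZ2 : IsPGroup 2 Z := fun a => ⟨1, by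
      obtain ⟨a, k, rfl⟩ := a
      apply Subtype.ext
      show ((-1 : SL(2, ZMod p)) ^ k) ^ 2 ^ 1 = 1
      rw [pow_one, ← zpow_natCast, ← _root_.zpow_mul, mul_comm, _root_.zpow_mul, zpow_natCast,
        neg_one_sq, _root_.one_zpow]⟩
    have htop : ((T.mapSurjective (f := π') hsurj) : Subgroup Z) = ⊤ :=
      top_le_iff.1 ((T.mapSurjective (f := π') hsurj).is_maximal'
        (hZ2.of_equiv Subgroup.topEquiv.symm) le_top).le
    rw [Sylow.coe_mapSurjective] at htop
    intro a ha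
    obtain ⟨t, ht, hta⟩ : (⟨a, ha⟩ : Z) ∈ (T : Subgroup (Z.comap π2)).map π' :=
      htop ▸ Subgroup.mem_top _
    exact ⟨t, ⟨t, ht, rfl⟩, congrArg Subtype.val hta⟩
  have hN : π2.range ≤ N.map π2 := by
    have hsup : N ⊔ Z.comap π2 = ⊤ := Sylow.normalizer_sup_eq_top T
    have h := congrArg (Subgroup.map π2) hsup
    rw [Subgroup.map_sup, ← MonoidHom.range_eq_map] at h
    rw [← h]
    exact sup_le le_rfl ((Subgroup.map_comap_le π2 Z).trans
      (hZT.trans (Subgroup.map_mono (Subgroup.le_normalizer))))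
  have hcompl : ∀ u (m : M), m ∈ N → (m : X × SL(2, ZMod p)) = (w u, 1) → u = 0 := by
    intro u m hm hmu
    obtain ⟨t, ht, htZ⟩ : (-1 : SL(2, ZMod p)) ∈ T'.map π2 := hZT (Subgroup.mem_zpowers _)
    have hcT : m * t * m⁻¹ * t⁻¹ ∈ T' :=
      mul_mem ((Subgroup.mem_normalizer_iff.1 hm t).1 ht) (inv_mem ht)
    have hval : ((m * t * m⁻¹ * t⁻¹ : M) : X × SL(2, ZMod p)) = (w (u + u), 1) := by
      have ht' := t.2 (-u)
      have e2 : (t : X × SL(2, ZMod p)).2 = -1 := htZ
      have e : (t : X × SL(2, ZMod p)).1 * (w u)⁻¹ * ((t : X × SL(2, ZMod p)).1)⁻¹ = w u := by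
        rw [← hwneg, ht', e2]
        simp [Matrix.neg_mulVec]
      refine Prod.ext ?_ ?_
      · simp only [Subgroup.coe_mul, Subgroup.coe_inv, Prod.fst_mul, Prod.fst_inv, hmu]
        rw [hwadd, mul_assoc, mul_assoc, ← mul_assoc (t : X × SL(2, ZMod p)).1, e]
      · simp only [Subgroup.coe_mul, Subgroup.coe_inv, Prod.snd_mul, Prod.snd_inv, hmu]
        group
    obtain ⟨k, hk⟩ := T.2.map (Z.comap π2).subtype ⟨_, hcT⟩
    have hk' : w (u + u) ^ 2 ^ k = 1 := by
      have := congrArg (fun z : ↥T' => ((z : M) : X × SL(2, ZMod p)).1) hk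
      simpa [SubmonoidClass.coe_pow, Prod.pow_fst, hval] using this
    have hp' : w (u + u) ^ p = 1 := by
      show (x ^ _ * y ^ _) ^ p = 1
      rw [(hxy.pow_pow _ _).mul_pow, ← pow_mul, ← pow_mul, mul_comm, mul_comm (ZMod.val _) p,
        pow_mul, pow_mul, hx, hy, one_pow, one_pow, one_mul]
    have h1 : w (u + u) = 1 := orderOf_eq_one_iff.1 (Nat.eq_one_of_dvd_coprimes
      (((Nat.coprime_primes Nat.prime_two hp.out).2 (Ne.symm hp2)).pow_left k)
      (orderOf_dvd_of_pow_eq_one hk') (orderOf_dvd_of_pow_eq_one hp'))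
    have h2 : u + u = 0 := hwinj0 _ h1
    funext i
    have := congrFun h2 i
    simp only [Pi.add_apply, Pi.zero_apply] at this ⊢
    rw [← two_mul, mul_eq_zero] at this
    refine this.resolve_left fun h => hp2 ((Nat.prime_dvd_prime_iff_eq hp.out Nat.prime_two).1 ?_)
    exact (ZMod.natCast_eq_zero_iff _ _).1 (by exact_mod_cast h)
  -- the graph of the surjection onto `F(p)`
  let S0 : Submonoid (X × fOver (ZMod p)) :=
    { carrier := {q | ∃ v, ∃ m ∈ N, q.1 = w v * (m : X × SL(2, ZMod p)).1 ∧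
        (q.2 : SL(3, ZMod p)) = ((aff (m : X × SL(2, ZMod p)).2 (v 0) (v 1) : qdOver (ZMod p)) :
          SL(3, ZMod p))}
      one_mem' := ⟨0, 1, one_mem _, by simp [hw0], by simp [aff_one]⟩
      mul_mem' := by
        rintro q r ⟨v, m, hm, h1, h2⟩ ⟨v', m', hm', h1', h2'⟩
        refine ⟨v + ((m : X × SL(2, ZMod p)).2 : Matrix (Fin 2) (Fin 2) (ZMod p)).mulVec v', m * m',
          mul_mem hm hm', ?_, ?_⟩
        · show q.1 * r.1 = w (v + _) *
            ((m : X × SL(2, ZMod p)).1 * (m' : X × SL(2, ZMod p)).1)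
          rw [h1, h1', hwadd, ← m.2 v']
          group
        · show (q.2 : SL(3, ZMod p)) * (r.2 : SL(3, ZMod p)) = ((aff ((m : X × SL(2, ZMod p)).2 *
            (m' : X × SL(2, ZMod p)).2) _ _ : qdOver (ZMod p)) : SL(3, ZMod p))
          rw [h2, h2', ← Subgroup.coe_mul, aff_mul]
          congr 2 <;> simp [Matrix.mulVec, dotProduct, Fin.sum_univ_two, add_comm] }
  let S : Subgroup (X × fOver (ZMod p)) := Subgroup.closure (S0 : Set _)
  have hS : ∀ q, q ∈ S ↔ q ∈ S0 := fun q => by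
    rw [← Subgroup.mem_toSubmonoid, Subgroup.closure_toSubmonoid_of_finite, Submonoid.closure_eq]
  let f1 : S →* X := (MonoidHom.fst X _).comp S.subtype
  have hf1 : Function.Injective f1 := by
    refine (injective_iff_map_eq_one f1).2 fun q hq => ?_
    obtain ⟨v, m, hm, hqe, hqe'⟩ := (hS _).1 q.2
    change (q : X × fOver (ZMod p)).1 = 1 at hq
    rw [hqe] at hq
    have hm1 : (m : X × SL(2, ZMod p)).1 = w (-v) := by
      rw [hwneg]; exact eq_inv_of_mul_eq_one_right hq
    have hA : (m : X × SL(2, ZMod p)).2 = 1 := by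
      refine Matrix.SpecialLinearGroup.ext _ _ fun i j => ?_
      have h := m.2 (Pi.single j 1)
      rw [hm1, hwneg, inv_inv, ← hwneg, ← hwadd, ← hwadd,
        show -v + Pi.single j 1 + v = (Pi.single j 1 : Fin 2 → ZMod p) by abel] at h
      have := congrFun (hwinj h) i
      rw [Matrix.mulVec_single] at this
      simpa [Matrix.one_apply, Pi.single_apply] using this.symm
    have hv : v = 0 := by simpa using hcompl (-v) m hm (Prod.ext hm1 hA)
    have hv1 : (m : X × SL(2, ZMod p)).1 = 1 := by rw [hm1, hv, neg_zero, hw0]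
    apply Subtype.ext
    refine Prod.ext ?_ (Subtype.ext ?_)
    · rw [hqe, hv, hv1]; simp [hw0]
    · rw [hqe', hv, hA]; simp [aff_one]
  have hf2 : Function.Surjective ((MonoidHom.snd X (fOver (ZMod p))).comp S.subtype) := by
    intro q
    obtain ⟨A, a, b, hAB, hq⟩ := exists_aff_eq q
    obtain ⟨m, hm, hmA⟩ : A ∈ N.map π2 := hN (hπ2 hAB)
    exact ⟨⟨(w ![a, b] * (m : X × SL(2, ZMod p)).1, q), (hS _).2 ⟨![a, b], m, hm, rfl, by
      show (q : SL(3, ZMod p)) = _
      rw [hq, ← hmA]; rfl⟩⟩, rfl⟩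
  let e' := MonoidHom.ofInjective hf1
  exact CfsgLib.Amalgams.involves_of_surjective (K := f1.range)
    (((MonoidHom.snd X (fOver (ZMod p))).comp S.subtype).comp e'.symm.toMonoidHom)
    (hf2.comp e'.symm.surjective)

end CfsgLib.ZJFailure
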