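import Cfsg.Agent.Lib.ZJFailure.Basic

/-!
An eigenvector of a `p'`-element modulo a subgroup lifts to an eigenvector of order `p`.
-/

set_option autoImplicit false
set_option linter.style.haveILetI false

open scoped IsMulCommutative

namespace CfsgLib.ZJFailure

variable {G : Type*} [Group G] [Finite G] {p : ℕ} [hp : Fact p.Prime]

omit [Finite G] in
theorem pow_eq_pow_of_cast_eq {z : G} (hz : z ^ p = 1) {m n : ℕ} (h : (m : ZMod p) = n) :
    z ^ m = z ^ n := by
  rw [pow_eq_pow_mod m hz, pow_eq_pow_mod n hz]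
  congr 1
  exact (ZMod.natCast_eq_natCast_iff' _ _ _).1 h

theorem exists_eigen_of_mod {A Z : Subgroup G} [IsMulCommutative A] (hA : IsPGroup p A) {t x : G}
    (hcop : (orderOf t).Coprime p) (htA : t ∈ Subgroup.normalizer (A : Set G))
    (htZ : t ∈ Subgroup.normalizer (Z : Set G)) (hxA : x ∈ A) (hxZ : x ∉ Z) (hxp : x ^ p ∈ Z)
    {f : (ZMod p)ˣ} (hx : (x ^ (f : ZMod p).val)⁻¹ * (t * x * t⁻¹) ∈ Z) :
    ∃ y ∈ A, orderOf y = p ∧ t * y * t⁻¹ = y ^ (f : ZMod p).val := by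
  classical
  obtain ⟨N, hN⟩ := IsPGroup.iff_card.1 hA
  obtain ⟨n, hn⟩ : ∃ n, n = orderOf t * (p - 1) := ⟨_, rfl⟩
  have hnp : ¬ p ∣ n := by
    rw [hn, hp.out.dvd_mul]
    rintro (h | h)
    · exact hp.out.not_dvd_one (hcop ▸ Nat.dvd_gcd h dvd_rfl)
    · have := hp.out.two_le
      exact absurd (Nat.le_of_dvd (by omega) h) (by omega)
  have htn : t ^ n = 1 := by rw [hn, pow_mul, pow_orderOf_eq_one, one_pow]
  have hfn : ((f : ZMod p)) ^ n = 1 := by
    rw [hn, mul_comm, pow_mul, ← Units.val_pow_eq_pow_val, ZMod.units_pow_card_sub_one_eq_one,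
      Units.val_one, one_pow]
  obtain ⟨C, hC⟩ : ∃ C, C = (f : ZMod p).val ^ p ^ N := ⟨_, rfl⟩
  have hCf : ((C : ℕ) : ZMod p) = f := by
    rw [hC, Nat.cast_pow, ZMod.natCast_zmod_val, ZMod.pow_card_pow]
  have hCn : ∀ z ∈ A, z ^ C ^ n = z := by
    intro z hz
    have h1 : (p : ℤ) ∣ ((f : ZMod p).val : ℤ) ^ n - 1 := by
      rw [← ZMod.intCast_zmod_eq_zero_iff_dvd]
      push_cast
      rw [ZMod.natCast_zmod_val, hfn, sub_self]
    have h2 := dvd_sub_pow_of_dvd_sub h1 N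
    rw [one_pow, ← pow_mul, mul_comm, pow_mul] at h2
    have h3 : ((p ^ N : ℕ) : ℤ) ∣ ((C ^ n : ℕ) : ℤ) - 1 := by
      rw [hC]
      push_cast
      exact (pow_dvd_pow _ N.le_succ).trans h2
    have h4 : z ^ (((C ^ n : ℕ) : ℤ) - 1) = 1 :=
      orderOf_dvd_iff_zpow_eq_one.1 ((Int.natCast_dvd_natCast.2
        (hN ▸ Subgroup.orderOf_dvd_natCard A hz)).trans h3)
    rwa [_root_.zpow_sub, zpow_natCast, _root_.zpow_one, mul_inv_eq_one] at h4
  let θ : A →* A :=
    { toFun := fun z => ⟨t * z * t⁻¹, conj_mem_of_normalizer htA z.2⟩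
      map_one' := by ext; simp
      map_mul' := fun z w => by ext; simp [mul_assoc] }
  have hθ : ∀ (i : ℕ) (z : A), ((θ^[i] z : A) : G) = t ^ i * z * (t ^ i)⁻¹ := by
    intro i
    induction i with
    | zero => simp
    | succ i ih =>
      intro z
      rw [Function.iterate_succ_apply', pow_succ']
      show t * ((θ^[i] z : A) : G) * t⁻¹ = _
      rw [ih]; group
  let ξ : A := ⟨x, hxA⟩
  let g : ℕ → A := fun i => (θ^[i] ξ) ^ C ^ (n - i)
  obtain ⟨z, hz⟩ : ∃ z : A, z = ∏ i ∈ Finset.range n, g i := ⟨_, rfl⟩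
  have hg0 : g 0 = ξ := Subtype.ext (by simpa [g] using hCn x hxA)
  have hgn : g n = ξ := Subtype.ext (by simp [g, hθ, htn, ξ])
  have hz' : θ z = z ^ C := by
    have h1 : ∀ i ∈ Finset.range n, θ (g i) = g (i + 1) ^ C := by
      intro i hi
      rw [Finset.mem_range] at hi
      simp only [g]
      rw [map_pow, ← pow_mul, ← pow_succ, Function.iterate_succ_apply',
        show n - (i + 1) + 1 = n - i by omega]
    rw [hz, map_prod, Finset.prod_congr rfl h1, Finset.prod_pow]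
    congr 1
    have h2 := (Finset.prod_range_succ' g n).symm.trans (Finset.prod_range_succ g n)
    rw [hg0, hgn] at h2
    exact mul_right_cancel h2
  -- modulo `Z`
  let q : A →* A ⧸ Z.subgroupOf A := QuotientGroup.mk' _
  have hqp : q ξ ^ p = 1 := by
    rw [← map_pow]
    exact (QuotientGroup.eq_one_iff _).2 hxp
  have hqθ : ∀ i : ℕ, q (θ^[i] ξ) = q ξ ^ ((f : ZMod p).val ^ i) := by
    intro i
    induction i with
    | zero => simp
    | succ i ih =>
      rw [Function.iterate_succ_apply']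
      have h1 : q (θ^[i] ξ) = q (ξ ^ ((f : ZMod p).val ^ i)) := by rw [ih, map_pow]
      have h2 : q (θ (θ^[i] ξ)) = q (θ (ξ ^ ((f : ZMod p).val ^ i))) := by
        refine QuotientGroup.eq.2 ?_
        have h3 : (θ^[i] ξ)⁻¹ * ξ ^ ((f : ZMod p).val ^ i) ∈ Z.subgroupOf A := QuotientGroup.eq.1 h1
        rw [← map_inv, ← map_mul]
        exact conj_mem_of_normalizer htZ (Subgroup.mem_subgroupOf.1 h3)
      have h4 : q (θ ξ) = q ξ ^ (f : ZMod p).val := by
        rw [← map_pow]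
        exact (QuotientGroup.eq.2 (Subgroup.mem_subgroupOf.2 hx)).symm
      rw [h2, map_pow, map_pow, h4, ← pow_mul, pow_succ']
  have hqz : q z = q ξ ^ n := by
    rw [hz, map_prod, Finset.prod_congr rfl fun i hi => ?_, Finset.prod_const, Finset.card_range]
    rw [Finset.mem_range] at hi
    rw [map_pow, hqθ, ← pow_mul]
    refine (pow_eq_pow_of_cast_eq hqp ?_).trans (pow_one _)
    push_cast
    rw [ZMod.natCast_zmod_val, hCf, ← pow_add, Nat.add_sub_cancel' hi.le, hfn]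
  have hz1 : (z : G) ≠ 1 := by
    intro h
    have h1 : q ξ ^ n = 1 := by rw [← hqz, show z = 1 from Subtype.ext h, map_one]
    have h2 : q ξ = 1 := orderOf_eq_one_iff.1 (Nat.eq_one_of_dvd_coprimes
      ((hp.out.coprime_iff_not_dvd).2 hnp) (orderOf_dvd_of_pow_eq_one hqp)
      (orderOf_dvd_of_pow_eq_one h1))
    have h3 : ξ ∈ Z.subgroupOf A := (QuotientGroup.eq_one_iff ξ).1 h2
    exact hxZ (Subgroup.mem_subgroupOf.1 h3)
  obtain ⟨k, hk⟩ := IsPGroup.iff_orderOf.1 hA z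
  rw [← Subgroup.orderOf_coe] at hk
  rcases k with - | k
  · exact absurd (orderOf_eq_one_iff.1 hk) hz1
  refine ⟨(z : G) ^ p ^ k, pow_mem z.2 _, ?_, ?_⟩
  · rw [orderOf_pow, hk, Nat.gcd_eq_right (pow_dvd_pow p k.le_succ), pow_succ,
      Nat.mul_div_cancel_left _ (pow_pos hp.out.pos _)]
  · rw [← conj_pow, show t * (z : G) * t⁻¹ = ((z ^ C : A) : G) from congrArg Subtype.val hz',
      SubmonoidClass.coe_pow, ← pow_mul, mul_comm, pow_mul]
    refine pow_eq_pow_of_cast_eq ?_ (by rw [hCf, ZMod.natCast_zmod_val])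
    rw [← pow_mul, ← pow_succ, ← hk, pow_orderOf_eq_one]

end CfsgLib.ZJFailure
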