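import Cfsg.Agent.Lib.ZJFailure.Basic
import Cfsg.Agent.Lib.FFModules.CoreBasic

/-!
If fusion in a Sylow subgroup `S` is not controlled by `H ≥ N(S)`, some `p`-local subgroup `M` with
`O_p(M) = Q` self-centralizing in `S` induces an automorphism of `Q` not induced by `H`.
-/

set_option autoImplicit false
set_option linter.style.haveILetI false

namespace CfsgLib.ZJFailure

open CfsgLib.ConjFunctor

variable {G : Type*} [Group G] [Finite G] {p : ℕ} [Fact p.Prime]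

/-- The self-centralizing subgroups of `S` with Sylow normalizer whose automizer is not in `H`. -/
def IsFailing (S : Sylow p G) (H Q : Subgroup G) : Prop :=
  Q ≤ S ∧ (S : Subgroup G) ⊓ Subgroup.centralizer (Q : Set G) ≤ Q ∧
    ¬ p ∣ ((S : Subgroup G) ⊓ Subgroup.normalizer (Q : Set G)).relIndex
      (Subgroup.normalizer (Q : Set G)) ∧
    ∃ m ∈ Subgroup.normalizer (Q : Set G), ¬ Rl H m Q

variable (S : Sylow p G) {H : Subgroup G}

/-- Among the conjugates of `P ≤ S` in `S`, one has a Sylow normalizer. -/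
theorem exists_conj_sylow_normalizer {P : Subgroup G} (hP : P ≤ S) :
    ∃ x : G, cj x P ≤ S ∧ ¬ p ∣ ((S : Subgroup G) ⊓ Subgroup.normalizer (cj x P : Set G)).relIndex
      (Subgroup.normalizer (cj x P : Set G)) := by
  obtain ⟨x, hx, hmax⟩ := Set.exists_max_image {x : G | cj x P ≤ S}
    (fun x => Nat.card ↥((S : Subgroup G) ⊓ Subgroup.normalizer (cj x P : Set G))) (Set.toFinite _)
    ⟨1, by simpa using hP⟩
  refine ⟨x, hx, ?_⟩
  obtain ⟨T, hNT, hTN, hT, hTi⟩ := exists_sylow_ge (S.2.to_inf_left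
    (K := Subgroup.normalizer (cj x P : Set G))) inf_le_right
  obtain ⟨T', hT'⟩ := hT.exists_le_sylow
  obtain ⟨y, hy'⟩ := MulAction.exists_smul_eq G T' S
  have hy : cj y T ≤ S := hy' ▸ cj_mono y hT'
  have hyx : cj (y * x) P ≤ S := by
    rw [cj_mul]
    exact (cj_mono y ((le_inf hx Subgroup.le_normalizer).trans hNT)).trans hy
  have hle : cj y T ≤ (S : Subgroup G) ⊓ Subgroup.normalizer (cj (y * x) P : Set G) := by
    refine le_inf hy ((cj_mono y hTN).trans ?_)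
    rw [cj_mul]
    exact Subgroup.le_normalizer_map _
  have h1 := hmax (y * x) hyx
  have h2 : Nat.card T ≤ Nat.card ↥((S : Subgroup G) ⊓ Subgroup.normalizer (cj x P : Set G)) := by
    rw [← card_cj y T]
    exact (Subgroup.card_le_of_le hle).trans h1
  rwa [Subgroup.eq_of_le_of_card_ge hNT h2]

/-- Every failure of control reaches a failing subgroup at least as large. -/
theorem exists_failing_ge (hH : Subgroup.normalizer ((S : Subgroup G) : Set G) ≤ H)
    {P : Subgroup G} {g : G} (hP : P ≤ S) (hgP : cj g P ≤ S) (hg : ¬ Rl H g P) :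
    ∃ Q, IsFailing S H Q ∧ Nat.card P ≤ Nat.card Q ∧
      min (Nat.card ↥((S : Subgroup G) ⊓ Subgroup.normalizer (P : Set G)))
          (Nat.card ↥((S : Subgroup G) ⊓ Subgroup.normalizer (cj g P : Set G))) ≤
        Nat.card ↥((S : Subgroup G) ⊓ Subgroup.normalizer (Q : Set G)) := by
  obtain ⟨n, hn⟩ : ∃ n, Nat.card (S : Subgroup G) - Nat.card P = n := ⟨_, rfl⟩
  induction n using Nat.strong_induction_on generalizing P g with
  | _ n ih =>
  have hlt : P < S := by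
    refine lt_of_le_of_ne hP ?_
    rintro rfl
    exact hg (Rl.of_mem (hH (cj_eq_self_iff.1
      (Subgroup.eq_of_le_of_card_ge hgP (card_cj g _).ge))))
  have ih' : ∀ {P' : Subgroup G} {g' : G}, P' ≤ S → cj g' P' ≤ S → ¬ Rl H g' P' →
      Nat.card P < Nat.card P' → ∃ Q, IsFailing S H Q ∧ Nat.card P' ≤ Nat.card Q ∧
      min (Nat.card ↥((S : Subgroup G) ⊓ Subgroup.normalizer (P' : Set G)))
          (Nat.card ↥((S : Subgroup G) ⊓ Subgroup.normalizer (cj g' P' : Set G))) ≤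
        Nat.card ↥((S : Subgroup G) ⊓ Subgroup.normalizer (Q : Set G)) :=
    fun {P' g'} h1 h2 h3 h4 => ih _ (by have := Subgroup.card_le_of_le h1; omega) h1 h2 h3 rfl
  obtain ⟨x, hx, hxi⟩ := exists_conj_sylow_normalizer S hP
  obtain ⟨P₁, hP₁⟩ : ∃ P₁, P₁ = cj x P := ⟨_, rfl⟩
  rw [← hP₁] at hx hxi
  -- transport a conjugate `U` of `P` in `S` to `P₁` together with its normalizer in `S`
  have key : ∀ U : Subgroup G, U ≤ S → ∀ y : G, cj y U = P₁ → ∃ k : G, cj k U = P₁ ∧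
      cj k ((S : Subgroup G) ⊓ Subgroup.normalizer (U : Set G)) ≤
        (S : Subgroup G) ⊓ Subgroup.normalizer (P₁ : Set G) := by
    intro U _ y hy
    have hle : cj y ((S : Subgroup G) ⊓ Subgroup.normalizer (U : Set G)) ≤
        Subgroup.normalizer (P₁ : Set G) :=
      hy ▸ (cj_mono y inf_le_right).trans (Subgroup.le_normalizer_map _)
    obtain ⟨m, hm, hmle⟩ := exists_cj_le (isPGroup_cj S.2.to_inf_left y) hle S.2.to_inf_left
      inf_le_right hxi
    exact ⟨m * y, by rw [cj_mul, hy, cj_eq_self_iff.2 hm], by rwa [cj_mul]⟩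
  obtain ⟨k₁, hk₁, hk₁'⟩ := key P hP x hP₁.symm
  obtain ⟨k₂, hk₂, hk₂'⟩ := key (cj g P) hgP (x * g⁻¹) (by rw [cj_mul, cj_inv_cj, hP₁])
  have hN : ∀ U : Subgroup G, U ≤ S → U < (S : Subgroup G) →
      Nat.card U < Nat.card ↥((S : Subgroup G) ⊓ Subgroup.normalizer (U : Set G)) :=
    fun U _ hU => Set.Finite.card_lt_card (Set.toFinite _) (lt_inf_normalizer S.2 hU)
  have hcard : Nat.card (cj g P) = Nat.card P := card_cj g P
  have hlt' : cj g P < S := lt_of_le_of_ne hgP fun e => hlt.ne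
    (Subgroup.eq_of_le_of_card_ge hP (by rw [← hcard, e]))
  by_cases h1 : Rl H k₁ ((S : Subgroup G) ⊓ Subgroup.normalizer (P : Set G))
  swap
  · obtain ⟨Q, hQ, hc, -⟩ := ih' inf_le_left (hk₁'.trans inf_le_left) h1 (hN P hP hlt)
    refine ⟨Q, hQ, ?_, (min_le_left _ _).trans (hc.trans (Subgroup.card_le_of_le
      (le_inf hQ.1 Subgroup.le_normalizer)))⟩
    exact (hN P hP hlt).le.trans hc
  by_cases h2 : Rl H k₂ ((S : Subgroup G) ⊓ Subgroup.normalizer (cj g P : Set G))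
  swap
  · obtain ⟨Q, hQ, hc, -⟩ := ih' inf_le_left (hk₂'.trans inf_le_left) h2
      (hcard ▸ hN _ hgP hlt')
    refine ⟨Q, hQ, ?_, (min_le_right _ _).trans (hc.trans (Subgroup.card_le_of_le
      (le_inf hQ.1 Subgroup.le_normalizer)))⟩
    exact (hcard ▸ hN _ hgP hlt').le.trans hc
  replace h1 := h1.mono (le_inf hP Subgroup.le_normalizer)
  replace h2 := h2.mono (le_inf hgP Subgroup.le_normalizer)
  obtain ⟨m, hmdef⟩ : ∃ m, m = k₂ * g * k₁⁻¹ := ⟨_, rfl⟩
  have hmP : cj m P₁ = P₁ := by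
    calc cj m P₁ = cj (k₂ * g * k₁⁻¹) (cj k₁ P) := by rw [hmdef, hk₁]
      _ = P₁ := by rw [cj_mul (k₂ * g), cj_inv_cj, cj_mul, hk₂]
  have hm : m ∈ Subgroup.normalizer (P₁ : Set G) := cj_eq_self_iff.1 hmP
  have hmR : ¬ Rl H m P₁ := by
    intro hm'
    refine hg ?_
    have e1 : Rl H (m * k₁) P := h1.mul (by rw [hk₁]; exact hm')
    have e2 : Rl H k₂⁻¹ (cj (m * k₁) P) := by
      rw [cj_mul, hk₁, hmP, ← hk₂]
      exact h2.inv
    have := e1.mul e2
    rwa [show k₂⁻¹ * (m * k₁) = g by rw [hmdef]; group] at this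
  have hcP : Nat.card P₁ = Nat.card P := by rw [hP₁, card_cj]
  have hNP : Nat.card ↥((S : Subgroup G) ⊓ Subgroup.normalizer (P : Set G)) ≤
      Nat.card ↥((S : Subgroup G) ⊓ Subgroup.normalizer (P₁ : Set G)) := by
    rw [← card_cj k₁]
    exact Subgroup.card_le_of_le hk₁'
  obtain ⟨C, hC⟩ : ∃ C, C = (S : Subgroup G) ⊓ Subgroup.centralizer (P₁ : Set G) := ⟨_, rfl⟩
  by_cases hCP : C ≤ P₁
  · exact ⟨P₁, ⟨hx, hC ▸ hCP, hxi, m, hm, hmR⟩, hcP.ge, (min_le_left _ _).trans hNP⟩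
  -- otherwise enlarge `P₁` by its centralizer
  have hCN : Subgroup.centralizer (P₁ : Set G) ≤ Subgroup.normalizer (P₁ : Set G) :=
    Subgroup.centralizer_le_normalizer _
  have hNC : Subgroup.normalizer (P₁ : Set G) ≤
      Subgroup.normalizer (Subgroup.centralizer (P₁ : Set G) : Set G) := by
    intro u hu
    refine mem_normalizer_of_conj_le fun c hc => Subgroup.mem_centralizer_iff.2 fun z hz => ?_
    have h := Subgroup.mem_centralizer_iff.1 hc (u⁻¹ * z * u)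
      ((Subgroup.mem_normalizer_iff''.1 hu z).1 hz)
    calc z * (u * c * u⁻¹) = u * (u⁻¹ * z * u * c) * u⁻¹ := by group
      _ = u * c * u⁻¹ * z := by rw [h]; group
  have hTC : (S : Subgroup G) ⊓ Subgroup.normalizer (P₁ : Set G) ⊓
      Subgroup.centralizer (P₁ : Set G) = C := by
    rw [hC, inf_assoc, inf_eq_right.2 hCN]
  have hCi : ¬ p ∣ C.relIndex (Subgroup.centralizer (P₁ : Set G)) :=
    hTC ▸ not_dvd_relIndex_inf S.2.to_inf_left inf_le_right hxi hCN hNC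
  obtain ⟨c, hc, n', hn', rfl⟩ := exists_frattini hCN hNC (hC ▸ S.2.to_inf_left) (hC ▸ inf_le_right)
    hCi hm
  have hn'R : ¬ Rl H n' P₁ := fun h => hmR <| h.of_agree fun y hy => by
    have := Subgroup.mem_centralizer_iff.1 hc _ (conj_mem_of_normalizer hn'.1 hy)
    calc c * n' * y * (c * n')⁻¹ = c * (n' * y * n'⁻¹) * c⁻¹ := by group
      _ = n' * y * n'⁻¹ := by rw [← this]; group
  have hsup : P₁ ⊔ C ≤ S := sup_le hx (hC ▸ inf_le_left)
  have hn'S : cj n' (P₁ ⊔ C) = P₁ ⊔ C := by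
    show (P₁ ⊔ C).map _ = _
    rw [Subgroup.map_sup]
    exact congrArg₂ (· ⊔ ·) (cj_eq_self_iff.2 hn'.1) (cj_eq_self_iff.2 hn'.2)
  have hlt₁ : P₁ < P₁ ⊔ C := lt_of_le_not_ge le_sup_left fun h => hCP (le_sup_right.trans h)
  obtain ⟨Q, hQ, hQc, hQN⟩ := ih' hsup (hn'S.trans_le hsup) (fun h => hn'R (h.mono le_sup_left))
    (hcP ▸ Set.Finite.card_lt_card (Set.toFinite _) hlt₁)
  refine ⟨Q, hQ, (hcP ▸ Subgroup.card_le_of_le (le_sup_left : P₁ ≤ P₁ ⊔ C)).trans hQc,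
    (min_le_left _ _).trans (hNP.trans ?_)⟩
  rw [hn'S, min_self] at hQN
  refine le_trans (Subgroup.card_le_of_le (le_inf inf_le_left fun u hu => ?_)) hQN
  refine mem_normalizer_of_conj_le fun y hy => ?_
  suffices h : P₁ ⊔ C ≤ (P₁ ⊔ C).comap (MulAut.conj u).toMonoidHom from h hy
  refine sup_le (fun z hz => ?_) fun z hz => ?_
  · exact Subgroup.mem_sup_left (conj_mem_of_normalizer hu.2 hz)
  · rw [hC] at hz ⊢
    exact Subgroup.mem_sup_right ⟨(S : Subgroup G).mul_mem ((S : Subgroup G).mul_mem hu.1 hz.1)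
      ((S : Subgroup G).inv_mem hu.1), conj_mem_of_normalizer (hNC hu.2) hz.2⟩

/-- A local subgroup `M` witnessing the failure of `H` to control fusion, with `Q = O_p(M)`. -/
structure IsLocalFailure (H M Q : Subgroup G) : Prop where
  le_sylow : Q ≤ S
  centralizer_le : (S : Subgroup G) ⊓ Subgroup.centralizer (Q : Set G) ≤ Q
  le_normalizer : M ≤ Subgroup.normalizer (Q : Set G)
  inf_le : (S : Subgroup G) ⊓ Subgroup.normalizer (Q : Set G) ≤ M
  lt_inf : Q < (S : Subgroup G) ⊓ Subgroup.normalizer (Q : Set G)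
  not_dvd : ¬ p ∣ ((S : Subgroup G) ⊓ Subgroup.normalizer (Q : Set G)).relIndex M
  exists_not_rl : ∃ m ∈ M, ¬ Rl H m Q
  minimal : ∀ L : Subgroup G, (S : Subgroup G) ⊓ Subgroup.normalizer (Q : Set G) ≤ L → L ≤ M →
    L ≠ M → ∀ m ∈ L, Rl H m Q
  le_of_normal : ∀ U : Subgroup G, U ≤ M → M ≤ Subgroup.normalizer (U : Set G) → IsPGroup p U →
    U ≤ Q
  rl_of_large : ∀ Y : Subgroup G, Y ≤ Q → M ≤ Subgroup.normalizer (Y : Set G) →
    Nat.card ↥((S : Subgroup G) ⊓ Subgroup.normalizer (Q : Set G)) <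
      Nat.card ↥((S : Subgroup G) ⊓ Subgroup.normalizer (Y : Set G)) → ∀ m ∈ M, Rl H m Y

/-- Failure of control produces a local failure. -/
theorem exists_isLocalFailure (hH : Subgroup.normalizer ((S : Subgroup G) : Set G) ≤ H)
    {P : Subgroup G} {g : G} (hP : P ≤ S) (hgP : cj g P ≤ S) (hg : ¬ Rl H g P) :
    ∃ M Q, IsLocalFailure S H M Q := by
  let N : Subgroup G → ℕ := fun Q =>
    Nat.card ↥((S : Subgroup G) ⊓ Subgroup.normalizer (Q : Set G))
  obtain ⟨Q, hQ, hmax⟩ := Set.exists_max_image {Q | IsFailing S H Q}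
    (fun Q => toLex (N Q, Nat.card Q)) (Set.toFinite _)
    ⟨_, (exists_failing_ge S hH hP hgP hg).choose_spec.1⟩
  have hQS := hQ.1
  obtain ⟨R, hR⟩ : ∃ R, R = (S : Subgroup G) ⊓ Subgroup.normalizer (Q : Set G) := ⟨_, rfl⟩
  have hRS : R ≤ S := hR ▸ inf_le_left
  have hlarge : ∀ Y : Subgroup G, Y ≤ S → ∀ m ∈ Subgroup.normalizer (Y : Set G), ¬ Rl H m Y →
      N Y ≤ N Q ∧ (N Y = N Q → Nat.card Y ≤ Nat.card Q) := by
    intro Y hY m hm hm'
    obtain ⟨Q', hQ', hc, hN'⟩ := exists_failing_ge S hH hY ((cj_eq_self_iff.2 hm).trans_le hY) hm'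
    rw [cj_eq_self_iff.2 hm, min_self] at hN'
    have hle := hmax Q' hQ'
    simp only [Prod.Lex.le_iff, ofLex_toLex] at hle
    change N Y ≤ N Q' at hN'
    rcases hle with hlt | ⟨he, hle⟩
    · exact ⟨hN'.trans hlt.le, fun e => absurd (e ▸ hN') hlt.not_ge⟩
    · exact ⟨he ▸ hN', fun _ => hc.trans hle⟩
  obtain ⟨M, hM⟩ : ∃ M, Minimal (fun M : Subgroup G => R ≤ M ∧
      M ≤ Subgroup.normalizer (Q : Set G) ∧ ∃ m ∈ M, ¬ Rl H m Q) M :=
    Set.Finite.exists_minimal (Set.toFinite _)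
      ⟨Subgroup.normalizer (Q : Set G), hR ▸ inf_le_right, le_rfl, hQ.2.2.2⟩
  obtain ⟨hRM, hMN, hMbad⟩ := hM.prop
  have hidx : ¬ p ∣ R.relIndex M := by
    rw [hR] at hRM ⊢
    exact fun h => hQ.2.2.1 (h.trans (dvd_of_mul_right_eq _
      (Subgroup.relIndex_mul_relIndex _ _ _ hRM hMN)))
  refine ⟨M, Q, hQS, hQ.2.1, hMN, hR ▸ hRM, ?_, hR ▸ hidx, hMbad, fun L hL hLM hne m hm => ?_,
    fun U hUM hMU hU => ?_, fun Y hY hMY hlt m hm => ?_⟩
  · refine lt_inf_normalizer S.2 (lt_of_le_of_ne hQS fun e => ?_)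
    obtain ⟨m, hm, hmR⟩ := hQ.2.2.2
    exact hmR (Rl.of_mem (hH (e ▸ hm)))
  · by_contra hmR
    exact hne (le_antisymm hLM (hM.2 ⟨hR ▸ hL, hLM.trans hMN, m, hm, hmR⟩ hLM))
  · -- `U` is inside `R`, so a failure for `U Q` contradicts maximality
    have hUR : U ≤ R := by
      obtain ⟨h, hh, hle⟩ := exists_cj_le hU hUM (S.2.to_le hRS) hRM hidx
      rwa [cj_eq_self_iff.2 (hMU hh)] at hle
    by_contra hUQ
    have hQR : Q ≤ R := hR ▸ le_inf hQS Subgroup.le_normalizer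
    obtain ⟨m, hm, hmR⟩ := hMbad
    have hMn : M ≤ Subgroup.normalizer ((Q ⊔ U : Subgroup G) : Set G) := by
      intro u hu
      refine cj_eq_self_iff.1 ?_
      show (Q ⊔ U).map _ = _
      rw [Subgroup.map_sup]
      exact congrArg₂ (· ⊔ ·) (cj_eq_self_iff.2 (hMN hu)) (cj_eq_self_iff.2 (hMU hu))
    obtain ⟨h1, h2⟩ := hlarge (Q ⊔ U) (sup_le hQS (hUR.trans hRS)) m (hMn hm)
      fun h => hmR (h.mono le_sup_left)
    have h3 : N Q ≤ N (Q ⊔ U) := Subgroup.card_le_of_le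
      (le_inf inf_le_left ((hR ▸ hRM).trans hMn))
    have hlt : Q < Q ⊔ U := lt_of_le_not_ge le_sup_left fun h => hUQ (le_sup_right.trans h)
    exact (h2 (le_antisymm h1 h3)).not_gt (Set.Finite.card_lt_card (Set.toFinite _) hlt)
  · by_contra hmR
    exact (hlarge Y (hY.trans hQS) m (hMY hm) hmR).1.not_gt hlt

namespace IsLocalFailure

variable {S} {M Q : Subgroup G} (F : IsLocalFailure S H M Q)
include F

theorem le_inf_normalizer : Q ≤ (S : Subgroup G) ⊓ Subgroup.normalizer (Q : Set G) := F.lt_inf.le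

theorem le : Q ≤ M := F.le_inf_normalizer.trans F.inf_le

end IsLocalFailure

/-- The elements of `M` acting on `Q` like elements of `H`. -/
def rlSubgroup (H M Q : Subgroup G) (hMQ : M ≤ Subgroup.normalizer (Q : Set G)) : Subgroup G where
  carrier := {m | m ∈ M ∧ Rl H m Q}
  one_mem' := ⟨one_mem _, Rl.of_mem (one_mem _)⟩
  mul_mem' := fun {a b} ha hb => ⟨mul_mem ha.1 hb.1,
    hb.2.mul (by rw [cj_eq_self_iff.2 (hMQ hb.1)]; exact ha.2)⟩
  inv_mem' := fun {a} ha => ⟨inv_mem ha.1, by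
    have := ha.2.inv
    rwa [cj_eq_self_iff.2 (hMQ ha.1)] at this⟩

theorem mem_rlSubgroup {M Q : Subgroup G} {hMQ : M ≤ Subgroup.normalizer (Q : Set G)} {m : G} :
    m ∈ rlSubgroup H M Q hMQ ↔ m ∈ M ∧ Rl H m Q := Iff.rfl

end CfsgLib.ZJFailure
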