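import Cfsg.Agent.Lib.ZJFailure.LocalFailure

/-!
Choice of the pair of quadratic elements: a minimal subgroup `K` outside the part of `M` acting
like `H`, normalizing a large `p`-subgroup `D`, generated by `D` and two conjugate quadratic elements.
-/

set_option autoImplicit false
set_option linter.style.haveILetI false

open scoped commutatorElement

namespace CfsgLib.ZJFailure

open CfsgLib.ConjFunctor

variable {G : Type*} [Group G] [Finite G] {p : ℕ} [Fact p.Prime]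

/-- The pair configuration. -/
structure IsPair (S : Sylow p G) (M Q B E M₀ K D : Subgroup G) (c b : G) : Prop where
  le_M : K ≤ M
  Q_le : Q ≤ D
  D_le : D ≤ K
  le_normalizer : K ≤ Subgroup.normalizer (D : Set G)
  isPGroup : IsPGroup p D
  mem_K : c ∈ K
  mem_S : c ∈ (S : Subgroup G)
  quadratic : ∀ y ∈ B, ⁅⁅y, c⁆, c⁆ ∈ E
  isConj : ∃ k ∈ K, b = k * c * k⁻¹
  le_sup : K ≤ D ⊔ Subgroup.closure ({c, b} : Set G)
  not_le : ¬ K ≤ M₀
  minimal : ∀ L : Subgroup G, L ≤ K → D ≤ L → c ∈ L → L ≠ K → L ≤ M₀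
  mem_of_normalizer : ∀ P : Subgroup G, P ≤ M → IsPGroup p P → D ≤ P → c ∈ P →
    ∀ q ∈ M, q ∈ Subgroup.normalizer (P : Set G) → q ∈ M₀

variable {S : Sylow p G} {H M Q B E : Subgroup G}

theorem exists_isPair (F : IsLocalFailure S H M Q) (hSH : (S : Subgroup G) ≤ H) {a : G}
    (haR : a ∈ (S : Subgroup G) ⊓ Subgroup.normalizer (Q : Set G)) (haQ : a ∉ Q)
    (hMB : M ≤ Subgroup.normalizer (B : Set G)) (hME : M ≤ Subgroup.normalizer (E : Set G))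
    (hquad : ∀ y ∈ B, ⁅⁅y, a⁆, a⁆ ∈ E) :
    ∃ K D c b, IsPair S M Q B E (rlSubgroup H M Q F.le_normalizer) K D c b := by
  obtain ⟨M₀, hM₀⟩ : ∃ M₀, M₀ = rlSubgroup H M Q F.le_normalizer := ⟨_, rfl⟩
  rw [← hM₀]
  obtain ⟨R, hR⟩ : ∃ R, R = (S : Subgroup G) ⊓ Subgroup.normalizer (Q : Set G) := ⟨_, rfl⟩
  rw [← hR] at haR
  have hRM : R ≤ M := hR ▸ F.inf_le
  have hRp : IsPGroup p R := hR ▸ S.2.to_inf_left
  have hQR : Q ≤ R := hR ▸ F.le_inf_normalizer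
  have hidx : ¬ p ∣ R.relIndex M := hR ▸ F.not_dvd
  have hRM₀ : R ≤ M₀ := fun r hr => hM₀ ▸ ⟨hRM hr, Rl.of_mem (hSH (by rw [hR] at hr; exact hr.1))⟩
  have hM₀M : M₀ ≤ M := hM₀ ▸ fun m hm => hm.1
  have hidx₀ : ¬ p ∣ R.relIndex M₀ := fun h => hidx (h.trans (dvd_of_mul_right_eq _
    (Subgroup.relIndex_mul_relIndex _ _ _ hRM₀ hM₀M)))
  have hover : ∀ L : Subgroup G, R ≤ L → L ≤ M → L ≠ M → L ≤ M₀ := fun L h1 h2 h3 m hm =>
    hM₀ ▸ ⟨h2 hm, F.minimal L (hR ▸ h1) h2 h3 m hm⟩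
  obtain ⟨m₀, hm₀, hm₀R⟩ := F.exists_not_rl
  have hne : ¬ M ≤ M₀ := fun h => hm₀R (hM₀ ▸ h hm₀ : m₀ ∈ rlSubgroup _ _ _ _).2
  let Δ : Set G := {x | ∃ m ∈ M, x = m * a * m⁻¹}
  have hΔ : ∀ {x : G}, x ∈ Δ → ∀ {m : G}, m ∈ M → m * x * m⁻¹ ∈ Δ := by
    rintro _ ⟨k, hk, rfl⟩ m hm
    exact ⟨m * k, mul_mem hm hk, by group⟩
  have haΔ : a ∈ Δ := ⟨1, one_mem _, by group⟩
  let Sig : G → Set G := fun g => Δ ∩ R ∩ (cj g R : Set G)
  obtain ⟨g, ⟨hgM, hg₀⟩, hmax⟩ := Set.exists_max_image {g : G | g ∈ M ∧ g ∉ M₀}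
    (fun g => (Sig g).ncard) (Set.toFinite _)
    ⟨m₀, hm₀, fun h => hm₀R (hM₀ ▸ h : m₀ ∈ rlSubgroup _ _ _ _).2⟩
  obtain ⟨D, hD⟩ : ∃ D, D = Q ⊔ Subgroup.closure (Sig g) := ⟨_, rfl⟩
  have hQD : Q ≤ D := hD ▸ le_sup_left
  have hgQ : cj g Q = Q := cj_eq_self_iff.2 (F.le_normalizer hgM)
  have hDR : D ≤ R := hD ▸ sup_le hQR ((Subgroup.closure_le _).2 fun x hx => hx.1.2)
  have hDgR : D ≤ cj g R := hD ▸ sup_le (hgQ.ge.trans (cj_mono g hQR))
    ((Subgroup.closure_le _).2 fun x hx => hx.2)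
  have hgRM : cj g R ≤ M :=
    (cj_mono g hRM).trans_eq (cj_eq_self_iff.2 (Subgroup.le_normalizer hgM))
  have hΔD : Δ ∩ (D : Set G) = Sig g := Set.Subset.antisymm
    (fun x hx => ⟨⟨hx.1, hDR hx.2⟩, hDgR hx.2⟩)
    (fun x hx => ⟨hx.1.1, hD ▸ Subgroup.mem_sup_right (Subgroup.subset_closure hx)⟩)
  have hcard : (Δ ∩ (cj g R : Set G)).ncard = (Δ ∩ (R : Set G)).ncard := by
    rw [show Δ ∩ (cj g R : Set G) = (fun x => g * x * g⁻¹) '' (Δ ∩ (R : Set G)) from ?_]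
    · exact Set.ncard_image_of_injective _ fun x y h => by simpa using h
    ext x
    refine ⟨fun hx => ⟨g⁻¹ * x * g, ⟨?_, mem_cj.1 hx.2⟩, by group⟩, ?_⟩
    · have := hΔ hx.1 (inv_mem hgM)
      simpa using this
    · rintro ⟨y, hy, rfl⟩
      exact ⟨hΔ hy.1 hgM, conj_mem_cj hy.2⟩
  have hnΔ : ∀ {U : Subgroup G} {k : G}, k ∈ M → k ∈ Subgroup.normalizer (U : Set G) →
      D = Q ⊔ Subgroup.closure (Δ ∩ (U : Set G)) → k ∈ Subgroup.normalizer (D : Set G) := by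
    intro U k hk hkU hDU
    refine mem_normalizer_of_conj_le fun y hy => ?_
    suffices h : D ≤ D.comap (MulAut.conj k).toMonoidHom from h hy
    nth_rw 1 [hDU]
    refine sup_le (fun z hz => hQD (conj_mem_of_normalizer (F.le_normalizer hk) hz))
      ((Subgroup.closure_le _).2 fun z hz => ?_)
    show k * z * k⁻¹ ∈ D
    rw [hDU]
    exact Subgroup.mem_sup_right (Subgroup.subset_closure
      ⟨hΔ hz.1 hk, conj_mem_of_normalizer hkU hz.2⟩)
  have hΔR : ¬ Δ ∩ (R : Set G) ⊆ D := by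
    intro hsub
    have e1 : Δ ∩ (R : Set G) = Sig g := Set.Subset.antisymm
      (fun x hx => ⟨hx, hDgR (hsub hx)⟩) fun x hx => hx.1
    have e2 : Sig g = Δ ∩ (cj g R : Set G) := Set.eq_of_subset_of_ncard_le
      (fun x hx => ⟨hx.1.1, hx.2⟩) (by rw [hcard, e1]) (Set.toFinite _)
    have hRD : R ≤ Subgroup.normalizer (D : Set G) := fun r hr =>
      hnΔ (hRM hr) (Subgroup.le_normalizer hr) (e1.symm ▸ hD)
    have hgD : g ∈ Subgroup.normalizer (D : Set G) := by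
      refine mem_normalizer_of_conj_le fun y hy => ?_
      suffices h : D ≤ D.comap (MulAut.conj g).toMonoidHom from h hy
      nth_rw 1 [hD]
      refine sup_le (fun z hz => hQD (conj_mem_of_normalizer (F.le_normalizer hgM) hz))
        ((Subgroup.closure_le _).2 fun z hz => ?_)
      show g * z * g⁻¹ ∈ D
      rw [hD, e2]
      exact Subgroup.mem_sup_right (Subgroup.subset_closure
        ⟨hΔ hz.1.1 hgM, conj_mem_cj hz.1.2⟩)
    have hL : M ⊓ Subgroup.normalizer (D : Set G) = M := by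
      by_contra h
      exact hg₀ (hover _ (le_inf hRM hRD) inf_le_left h ⟨hgM, hgD⟩)
    have hDQ : D ≤ Q := F.le_of_normal D (hDR.trans hRM) (inf_eq_left.1 hL) (hRp.to_le hDR)
    exact haQ (hDQ (hsub ⟨haΔ, haR⟩))
  have hΔgR : ¬ Δ ∩ (cj g R : Set G) ⊆ D := by
    intro hsub
    refine hΔR fun x hx => ?_
    have e1 : Δ ∩ (cj g R : Set G) ⊆ Sig g := fun y hy => ⟨⟨hy.1, hDR (hsub hy)⟩, hy.2⟩
    have e2 : Sig g = Δ ∩ (R : Set G) := Set.eq_of_subset_of_ncard_le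
      (fun y hy => hy.1) (hcard ▸ Set.ncard_le_ncard e1 (Set.toFinite _)) (Set.toFinite _)
    exact hD ▸ Subgroup.mem_sup_right (Subgroup.subset_closure (e2.symm ▸ hx))
  have hgrow : ∀ U : Subgroup G, IsPGroup p U → U ≤ M → D ≤ U → ¬ Δ ∩ (U : Set G) ⊆ D →
      ∃ c ∈ Δ, c ∈ U ∧ c ∈ Subgroup.normalizer (D : Set G) ∧ c ∉ D := by
    intro U hU hUM hDU hsub
    by_contra hnone
    push Not at hnone
    obtain ⟨N, hN⟩ : ∃ N, N = U ⊓ Subgroup.normalizer (D : Set G) := ⟨_, rfl⟩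
    have e1 : Δ ∩ (N : Set G) = Sig g := by
      rw [← hΔD]
      refine Set.Subset.antisymm (fun x hx => ⟨hx.1, ?_⟩) fun x hx => ⟨hx.1, ?_⟩
      · have := hx.2
        rw [hN] at this
        exact hnone x hx.1 this.1 this.2
      · rw [hN]
        exact ⟨hDU hx.2, Subgroup.le_normalizer hx.2⟩
    have hNU : N = U := by
      refine le_antisymm (hN ▸ inf_le_left) ?_
      by_contra hle
      have hlt := lt_inf_normalizer hU (lt_of_le_not_ge (hN ▸ inf_le_left : N ≤ U) hle)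
      refine hlt.not_ge fun x hx => ?_
      rw [hN]
      exact ⟨hx.1, hnΔ (hUM hx.1) hx.2 (by rw [e1]; exact hD)⟩
    refine hsub fun x hx => ?_
    rw [hNU, ← hΔD] at e1
    exact (e1 ▸ hx : x ∈ Δ ∩ (D : Set G)).2
  obtain ⟨c, hcΔ, hcR, hcD, hcnot⟩ := hgrow R hRp hRM hDR hΔR
  obtain ⟨c', hc'Δ, hc'R, hc'D, hc'not⟩ := hgrow (cj g R) (isPGroup_cj hRp g) hgRM hDgR hΔgR
  -- two Sylow subgroups containing more than `Sig g`
  have hbig : ∀ h ∈ M, h ∉ M₀ → ∀ x : G, x ∈ M → ∀ z ∈ Δ, z ∉ D →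
      (∀ y, y ∈ Sig g ∨ y = z → x * y * x⁻¹ ∈ R ∧ x * y * x⁻¹ ∈ cj h R) → False := by
    intro h hh hh₀ x hx z hz hzD hy
    have hsub : (fun y => x * y * x⁻¹) '' (insert z (Sig g)) ⊆ Sig h := by
      rintro _ ⟨y, hy', rfl⟩
      have := hy y (hy'.symm)
      refine ⟨⟨hΔ ?_ hx, this.1⟩, this.2⟩
      rcases hy' with rfl | hy'
      · exact hz
      · exact hy'.1.1
    have hzS : z ∉ Sig g := fun hzS => hzD (hΔD.symm ▸ hzS : z ∈ Δ ∩ (D : Set G)).2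
    have h1 := Set.ncard_le_ncard hsub (Set.toFinite _)
    rw [Set.ncard_image_of_injective _ (fun u v h => by simpa using h),
      Set.ncard_insert_of_notMem hzS (Set.toFinite _)] at h1
    exact absurd (hmax h ⟨hh, hh₀⟩) (by omega)
  have hc'₀ : c' ∉ M₀ := by
    intro hc'
    have hle : D ⊔ Subgroup.zpowers c' ≤ cj g R :=
      sup_le hDgR (Subgroup.zpowers_le.2 hc'R)
    obtain ⟨m, hm, hmle⟩ := exists_cj_le ((isPGroup_cj hRp g).to_le hle)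
      (sup_le (hDR.trans hRM₀) (Subgroup.zpowers_le.2 hc')) hRp hRM₀ hidx₀
    refine hbig (m * g) (mul_mem (hM₀M hm) hgM) (fun h => hg₀ ?_) m (hM₀M hm) c' hc'Δ hc'not ?_
    · simpa using mul_mem (inv_mem hm) h
    intro y hy
    have hy' : y ∈ D ⊔ Subgroup.zpowers c' := by
      rcases hy with hy | rfl
      · exact Subgroup.mem_sup_left (hΔD.symm ▸ hy : y ∈ Δ ∩ (D : Set G)).2
      · exact Subgroup.mem_sup_right (Subgroup.mem_zpowers _)
    exact ⟨hmle (conj_mem_cj hy'), by rw [cj_mul]; exact conj_mem_cj (hle hy')⟩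
  have hSE : ∀ h ∈ M, D ≤ cj h R → c ∈ cj h R → h ∈ M₀ := by
    intro h hh hDh hch
    by_contra hh₀
    refine hbig h hh hh₀ 1 (one_mem _) c hcΔ hcnot fun y hy => ?_
    simp only [one_mul, inv_one, mul_one]
    rcases hy with hy | rfl
    · exact ⟨hy.1.2, hDh (hΔD.symm ▸ hy : y ∈ Δ ∩ (D : Set G)).2⟩
    · exact ⟨hcR, hch⟩
  have hcor : ∀ P : Subgroup G, P ≤ M → IsPGroup p P → D ≤ P → c ∈ P →
      ∀ q ∈ M, q ∈ Subgroup.normalizer (P : Set G) → q ∈ M₀ := by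
    intro P hPM hP hDP hcP q hq hqP
    obtain ⟨h, hh, hle⟩ := exists_cj_le hP hPM hRp hRM hidx
    have hle' : P ≤ cj h⁻¹ R := cj_le_iff.1 hle
    have h1 := hSE h⁻¹ (inv_mem hh) (hDP.trans hle') (hle' hcP)
    have hle'' : P ≤ cj (q * h⁻¹) R := by
      rw [cj_mul]
      exact (cj_eq_self_iff.2 hqP).ge.trans (cj_mono q hle')
    have h2 := hSE (q * h⁻¹) (mul_mem hq (inv_mem hh)) (hDP.trans hle'') (hle'' hcP)
    simpa using mul_mem h2 (inv_mem h1)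
  have hcM : c ∈ M := hRM hcR
  obtain ⟨K, hK⟩ : ∃ K, Minimal (fun L : Subgroup G => L ≤ M ⊓ Subgroup.normalizer (D : Set G) ∧
      D ≤ L ∧ c ∈ L ∧ ¬ L ≤ M₀) K :=
    Set.Finite.exists_minimal (Set.toFinite _) ⟨M ⊓ Subgroup.normalizer (D : Set G), le_rfl,
      le_inf (hDR.trans hRM) Subgroup.le_normalizer, ⟨hcM, hcD⟩,
      fun h => hc'₀ (h ⟨hgRM hc'R, hc'D⟩)⟩
  obtain ⟨hKle, hDK, hcK, hKne⟩ := hK.prop
  have hKM : K ≤ M := hKle.trans inf_le_left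
  have hKD : K ≤ Subgroup.normalizer (D : Set G) := hKle.trans inf_le_right
  have hmin : ∀ L : Subgroup G, L ≤ K → D ≤ L → c ∈ L → L ≠ K → L ≤ M₀ := fun L h1 h2 h3 h4 => by
    by_contra h5
    exact h4 (le_antisymm h1 (hK.2 ⟨h1.trans hKle, h2, h3, h5⟩ h1))
  obtain ⟨b, ⟨k, hk, rfl⟩, hb₀⟩ : ∃ b, (∃ k ∈ K, b = k * c * k⁻¹) ∧ b ∉ M₀ := by
    by_contra hnone
    push Not at hnone
    obtain ⟨N, hN⟩ : ∃ N, N = D ⊔ Subgroup.closure {x | ∃ k ∈ K, x = k * c * k⁻¹} := ⟨_, rfl⟩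
    have hNK : N ≤ K := hN ▸ sup_le hDK ((Subgroup.closure_le _).2 (by
      rintro _ ⟨k, hk, rfl⟩; exact mul_mem (mul_mem hk hcK) (inv_mem hk)))
    have hN₀ : N ≤ M₀ := hN ▸ sup_le (hDR.trans hRM₀)
      ((Subgroup.closure_le _).2 fun x hx => hnone x hx)
    have hcN : c ∈ N := hN ▸ Subgroup.mem_sup_right
      (Subgroup.subset_closure ⟨1, one_mem _, by group⟩)
    have hKN : K ≤ Subgroup.normalizer (N : Set G) := by
      intro u hu
      refine mem_normalizer_of_conj_le fun y hy => ?_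
      suffices h : N ≤ N.comap (MulAut.conj u).toMonoidHom from h hy
      nth_rw 1 [hN]
      refine sup_le (fun z hz => ?_) ((Subgroup.closure_le _).2 ?_)
      · exact hN ▸ Subgroup.mem_sup_left (conj_mem_of_normalizer (hKD hu) hz)
      · rintro _ ⟨k, hk, rfl⟩
        show u * (k * c * k⁻¹) * u⁻¹ ∈ N
        rw [hN]
        exact Subgroup.mem_sup_right
          (Subgroup.subset_closure ⟨u * k, mul_mem hu hk, by group⟩)
    obtain ⟨T, hDT, hTN, hT, hTi⟩ := exists_sylow_ge (H := N)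
      (hRp.to_le (sup_le hDR (Subgroup.zpowers_le.2 hcR)))
      (sup_le (hN ▸ le_sup_left) (Subgroup.zpowers_le.2 hcN))
    refine hKne fun u hu => ?_
    obtain ⟨x, hx, n, hn, rfl⟩ := exists_frattini hNK hKN hT hTN hTi hu
    exact mul_mem (hN₀ hx) (hcor T (hTN.trans (hNK.trans hKM)) hT
      (le_sup_left.trans hDT) (hDT (Subgroup.mem_sup_right (Subgroup.mem_zpowers _))) n
      (hKM hn.1) hn.2)
  refine ⟨K, D, c, k * c * k⁻¹, hKM, hQD, hDK, hKD, hRp.to_le hDR, hcK,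
    by rw [hR] at hcR; exact hcR.1, ?_, ⟨k, hk, rfl⟩, ?_, hKne, hmin, hcor⟩
  · obtain ⟨m, hm, rfl⟩ := hcΔ
    intro y hy
    have hy' : m⁻¹ * y * m ∈ B := (Subgroup.mem_normalizer_iff''.1 (hMB hm) y).1 hy
    have := conj_mem_of_normalizer (hME hm) (hquad _ hy')
    rwa [show m * ⁅⁅m⁻¹ * y * m, a⁆, a⁆ * m⁻¹ = ⁅⁅y, m * a * m⁻¹⁆, m * a * m⁻¹⁆ by
      simp only [commutatorElement_def]; group] at this
  · obtain ⟨L, hL⟩ : ∃ L, L = D ⊔ Subgroup.closure ({c, k * c * k⁻¹} : Set G) := ⟨_, rfl⟩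
    rw [← hL]
    have hbK : k * c * k⁻¹ ∈ K := mul_mem (mul_mem hk hcK) (inv_mem hk)
    have hLK : L ≤ K := hL ▸ sup_le hDK ((Subgroup.closure_le _).2 (Set.pair_subset hcK hbK))
    by_contra hne'
    refine hb₀ (hmin L hLK (hL ▸ le_sup_left)
      (hL ▸ Subgroup.mem_sup_right (Subgroup.subset_closure (Set.mem_insert _ _)))
      (fun e => hne' e.ge) ?_)
    exact hL ▸ Subgroup.mem_sup_right
      (Subgroup.subset_closure (Set.mem_insert_of_mem _ rfl))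

end CfsgLib.ZJFailure
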