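import Cfsg.Agent.Lib.ZJFailure.LocalFailure

/-!
In a local failure of `N(Z(J(S)))` to control fusion, some element of `S` outside `O_p(M)` acts
quadratically on a normal `p`-subgroup modulo a normal subgroup inside `Z(J(S))`.
-/

set_option autoImplicit false
set_option linter.style.haveILetI false

open scoped commutatorElement

namespace CfsgLib.ZJFailure

open Cfsg CfsgLib.ConjFunctor CfsgLib.NormalPComplement

variable {G : Type*} [Group G] [Finite G] {p : ℕ} [Fact p.Prime]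

omit [Finite G] [Fact p.Prime] in
theorem zj_le (S : Sylow p G) : centerThompsonAOf (S : Subgroup G) ≤ S :=
  inf_le_left.trans (thompsonSubgroupAOf_le _)

omit [Fact p.Prime] in
theorem normalizer_sylow_le_zj (S : Sylow p G) :
    Subgroup.normalizer ((S : Subgroup G) : Set G) ≤
      Subgroup.normalizer (centerThompsonAOf (S : Subgroup G) : Set G) :=
  (normalizer_le_normalizer_thompsonSubgroupAOf _).trans (normalizer_le_normalizer_inf_centralizer _)

omit [Fact p.Prime] in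
theorem sylow_le_normalizer_zj (S : Sylow p G) :
    (S : Subgroup G) ≤ Subgroup.normalizer (centerThompsonAOf (S : Subgroup G) : Set G) :=
  Subgroup.le_normalizer.trans (normalizer_sylow_le_zj S)

omit [Fact p.Prime] in
theorem zj_le_of_isMaxAbelian {S : Sylow p G} {A : Subgroup G}
    (hA : IsMaxAbelian (S : Subgroup G) A) : centerThompsonAOf (S : Subgroup G) ≤ A := by
  have hc : centerThompsonAOf (S : Subgroup G) ≤ Subgroup.centralizer (A : Set G) :=
    inf_le_right.trans (Subgroup.centralizer_le (le_thompsonSubgroupAOf hA))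
  have hsup : IsMulCommutative ↥(A ⊔ centerThompsonAOf (S : Subgroup G)) := by
    rw [isMulCommutative_iff_le_centralizer, Subgroup.le_centralizer_iff]
    refine sup_le ?_ ?_ <;> rw [Subgroup.le_centralizer_iff] <;> refine sup_le ?_ ?_
    · exact isMulCommutative_iff_le_centralizer.1 hA.comm
    · exact hc
    · exact Subgroup.le_centralizer_iff.1 hc
    · exact ThompsonJ.inf_centralizer_le_centralizer_self _
  have hle := hA.card_le _ (sup_le hA.le (zj_le S)) hsup
  rw [Subgroup.eq_of_le_of_card_ge le_sup_left hle]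
  exact le_sup_right

omit [Finite G] in
theorem commute_zj {S : Sylow p G} {x y : G} (hx : x ∈ centerThompsonAOf (S : Subgroup G))
    (hy : y ∈ centerThompsonAOf (S : Subgroup G)) : x * y = y * x :=
  (Subgroup.mem_centralizer_iff.1 hx.2 y hy.1).symm

/-- The quadratic datum. -/
structure IsQuadDatum (S : Sylow p G) (M Q B E : Subgroup G) (a : G) : Prop where
  le_Q : B ≤ Q
  le_normalizer : M ≤ Subgroup.normalizer (B : Set G)
  not_normal : ¬ M ≤ Subgroup.normalizer
    ((B ⊓ centerThompsonAOf (S : Subgroup G) : Subgroup G) : Set G)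
  le_of_inf : ∀ U : Subgroup G, M ≤ Subgroup.normalizer (U : Set G) →
    B ⊓ centerThompsonAOf (S : Subgroup G) ≤ U → B ≤ U
  E_le : E ≤ B ⊓ centerThompsonAOf (S : Subgroup G)
  le_normalizer_E : M ≤ Subgroup.normalizer (E : Set G)
  commutator_mem : ∀ y ∈ B, ∀ q ∈ Q, ⁅y, q⁆ ∈ E
  mem : a ∈ (S : Subgroup G) ⊓ Subgroup.normalizer (Q : Set G)
  not_mem : a ∉ Q
  quadratic : ∀ y ∈ B, ⁅⁅y, a⁆, a⁆ ∈ E

variable {S : Sylow p G} {M Q : Subgroup G}

/-- `O_p(M) ∩ Z(J(S))` is not normal in `M` when `Z(J(S))` is not inside `O_p(M)`. -/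
theorem not_le_normalizer_inf
    (F : IsLocalFailure S (Subgroup.normalizer (centerThompsonAOf (S : Subgroup G) : Set G)) M Q)
    {a : G} (ha : a ∈ (S : Subgroup G) ⊓ Subgroup.normalizer (Q : Set G))
    (haW : a ∈ centerThompsonAOf (S : Subgroup G)) (haQ : a ∉ Q) :
    ¬ M ≤ Subgroup.normalizer ((Q ⊓ centerThompsonAOf (S : Subgroup G) : Subgroup G) : Set G) := by
  obtain ⟨W, hW⟩ : ∃ W, W = centerThompsonAOf (S : Subgroup G) := ⟨_, rfl⟩
  rw [← hW] at haW ⊢
  intro hMX
  have haM : a ∈ M := F.inf_le ha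
  let U : Subgroup G :=
    { carrier := {m | m ∈ M ∧ (∀ x ∈ Q ⊓ W, m * x * m⁻¹ = x) ∧
        ∀ u ∈ Q, u⁻¹ * (m * u * m⁻¹) ∈ Q ⊓ W}
      one_mem' := ⟨one_mem _, fun x _ => by group, fun u _ => by simp⟩
      mul_mem' := fun {m n} hm hn => ⟨mul_mem hm.1 hn.1, fun x hx => by
          calc m * n * x * (m * n)⁻¹ = m * (n * x * n⁻¹) * m⁻¹ := by group
            _ = x := by rw [hn.2.1 x hx, hm.2.1 x hx],
        fun u hu => by
          have h1 := hn.2.2 u hu
          have h2 := hm.2.2 _ (conj_mem_of_normalizer (F.le_normalizer hn.1) hu)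
          have e : u⁻¹ * (m * n * u * (m * n)⁻¹) =
              (u⁻¹ * (n * u * n⁻¹)) * ((n * u * n⁻¹)⁻¹ * (m * (n * u * n⁻¹) * m⁻¹)) := by group
          rw [e]
          exact mul_mem h1 h2⟩
      inv_mem' := fun {m} hm => ⟨inv_mem hm.1, fun x hx => by
          calc m⁻¹ * x * m⁻¹⁻¹ = m⁻¹ * (m * x * m⁻¹) * m := by rw [hm.2.1 x hx]; group
            _ = x := by group,
        fun u hu => by
          have hu' := conj_mem_of_normalizer (F.le_normalizer (inv_mem hm.1)) hu
          have h2 := inv_mem (hm.2.2 _ hu')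
          have e : u⁻¹ * (m⁻¹ * u * m⁻¹⁻¹) =
              ((m⁻¹ * u * m⁻¹⁻¹)⁻¹ * (m * (m⁻¹ * u * m⁻¹⁻¹) * m⁻¹))⁻¹ := by group
          rw [e]
          exact h2⟩ }
  have hUM : U ≤ M := fun m hm => hm.1
  have haU : a ∈ U := by
    refine ⟨haM, fun x hx => ?_, fun u hu => ⟨?_, ?_⟩⟩
    · rw [hW] at haW hx
      rw [commute_zj haW hx.2]
      group
    · exact Q.mul_mem (Q.inv_mem hu) (conj_mem_of_normalizer ha.2 hu)
    · rw [show u⁻¹ * (a * u * a⁻¹) = (u⁻¹ * a * u⁻¹⁻¹) * a⁻¹ by group]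
      exact W.mul_mem (conj_mem_of_normalizer (by
        rw [hW]; exact sylow_le_normalizer_zj S ((S : Subgroup G).inv_mem (F.le_sylow hu))) haW)
        (W.inv_mem haW)
  have hMU : M ≤ Subgroup.normalizer (U : Set G) := by
    intro k hk
    refine mem_normalizer_of_conj_le fun m hm => ⟨mul_mem (mul_mem hk hm.1) (inv_mem hk),
      fun x hx => ?_, fun u hu => ?_⟩
    · have hx' : k⁻¹ * x * k ∈ Q ⊓ W := (Subgroup.mem_normalizer_iff''.1 (hMX hk) x).1 hx
      calc k * m * k⁻¹ * x * (k * m * k⁻¹)⁻¹ = k * (m * (k⁻¹ * x * k) * m⁻¹) * k⁻¹ := by group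
        _ = x := by rw [hm.2.1 _ hx']; group
    · have hu' : k⁻¹ * u * k ∈ Q :=
        (Subgroup.mem_normalizer_iff''.1 (F.le_normalizer hk) u).1 hu
      have := conj_mem_of_normalizer (hMX hk) (hm.2.2 _ hu')
      rwa [show k * ((k⁻¹ * u * k)⁻¹ * (m * (k⁻¹ * u * k) * m⁻¹)) * k⁻¹ =
        u⁻¹ * (k * m * k⁻¹ * u * (k * m * k⁻¹)⁻¹) by group] at this
  -- the `p'`-elements of `U` centralize `Q`
  obtain ⟨R, hR⟩ : ∃ R, R = (S : Subgroup G) ⊓ Subgroup.normalizer (Q : Set G) := ⟨_, rfl⟩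
  have hRM : R ≤ M := hR ▸ F.inf_le
  have hRp : IsPGroup p R := hR ▸ S.2.to_inf_left
  have hpp : ∀ m ∈ U, (orderOf m).Coprime p →
      m ∈ Subgroup.centralizer (Q : Set G) := by
    intro m hm hcop
    refine CoprimeAction.le_centralizer_of_series (A := Subgroup.zpowers m) (K := Q)
      (N := Q ⊓ W) inf_le_left ?_ ?_ ?_ (Subgroup.mem_zpowers m)
    · obtain ⟨n, hn⟩ := IsPGroup.iff_card.1
        ((S.2.to_le F.le_sylow).to_le (inf_le_left : Q ⊓ W ≤ Q))
      rw [Nat.card_zpowers, hn]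
      exact hcop.pow_right n
    · refine Subgroup.zpowers_le.2 (Subgroup.mem_centralizer_iff.2 fun x hx => ?_)
      calc x * m = (m * x * m⁻¹) * m := by rw [hm.2.1 x hx]
        _ = m * x := by group
    · intro k hk u hu
      exact ((Subgroup.zpowers_le.2 hm : Subgroup.zpowers m ≤ U) hk).2.2 u hu
  have hTi : ¬ p ∣ (R ⊓ U).relIndex U :=
    not_dvd_relIndex_inf hRp hRM (hR ▸ F.not_dvd) hUM hMU
  -- `U ∩ R` has normalizer `M` or inside the elements acting like `H`
  by_cases hN : M ≤ Subgroup.normalizer ((R ⊓ U : Subgroup G) : Set G)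
  · exact haQ (F.le_of_normal (R ⊓ U) (inf_le_right.trans hUM) hN hRp.to_inf_left
      ⟨hR ▸ ha, haU⟩)
  have hRN : R ≤ M ⊓ Subgroup.normalizer ((R ⊓ U : Subgroup G) : Set G) := by
    refine fun r hr => ⟨hRM hr, mem_normalizer_of_conj_le fun x hx => ?_⟩
    exact ⟨R.mul_mem (R.mul_mem hr hx.1) (R.inv_mem hr), conj_mem_of_normalizer (hMU (hRM hr)) hx.2⟩
  have hNrl := F.minimal _ (hR ▸ hRN) inf_le_left fun e => hN (e ▸ inf_le_right)
  let M0 := rlSubgroup (Subgroup.normalizer (centerThompsonAOf (S : Subgroup G) : Set G)) M Q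
    F.le_normalizer
  have hU0 : U ≤ M0 := by
    refine (le_pPrimeElts_sup (T := R ⊓ U) inf_le_right hTi).trans (sup_le ?_ ?_)
    · refine (Subgroup.closure_le _).2 fun m hm => ⟨hUM hm.1, ?_⟩
      exact Rl.of_centralizer (hpp m hm.1 hm.2)
    · intro r hr
      exact ⟨hRM hr.1, hNrl r (hRN hr.1)⟩
  obtain ⟨m, hm, hmR⟩ := F.exists_not_rl
  obtain ⟨c, hc, n, hn, rfl⟩ := exists_frattini hUM hMU hRp.to_inf_left inf_le_right hTi hm
  exact hmR (M0.mul_mem (hU0 hc) ⟨hn.1, hNrl n hn⟩).2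

/-- Every local failure has a quadratic datum. -/
theorem exists_isQuadDatum (hp : p ≠ 2)
    (F : IsLocalFailure S (Subgroup.normalizer (centerThompsonAOf (S : Subgroup G) : Set G)) M Q) :
    ∃ B E a, IsQuadDatum S M Q B E a := by
  obtain ⟨W, hW⟩ : ∃ W, W = centerThompsonAOf (S : Subgroup G) := ⟨_, rfl⟩
  have hWS : W ≤ S := hW ▸ zj_le S
  have hSW : (S : Subgroup G) ≤ Subgroup.normalizer (W : Set G) := hW ▸ sylow_le_normalizer_zj S
  obtain ⟨R, hR⟩ : ∃ R, R = (S : Subgroup G) ⊓ Subgroup.normalizer (Q : Set G) := ⟨_, rfl⟩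
  have hRS : R ≤ S := hR ▸ inf_le_left
  have hRM : R ≤ M := hR ▸ F.inf_le
  have hQR : Q ≤ R := hR ▸ F.le_inf_normalizer
  have hQn : ¬ M ≤ Subgroup.normalizer ((Q ⊓ W : Subgroup G) : Set G) := by
    by_cases hWQ : W ≤ Q
    · rw [inf_eq_right.2 hWQ]
      intro hall
      obtain ⟨m, hm, hmR⟩ := F.exists_not_rl
      exact hmR (Rl.of_mem (hW ▸ hall hm))
    · have hlt : Q < Q ⊔ W := lt_of_le_not_ge le_sup_left fun h => hWQ (le_sup_right.trans h)
      obtain ⟨z, ⟨hz, hzN⟩, hzQ⟩ := SetLike.exists_of_lt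
        (lt_inf_normalizer (S.2.to_le (sup_le F.le_sylow hWS)) hlt)
      replace hz : z ∈ ((Q ⊔ W : Subgroup G) : Set G) := hz
      rw [Subgroup.coe_mul_of_left_le_normalizer_right Q W
        (F.le_sylow.trans hSW)] at hz
      obtain ⟨q, hq, w, hw, rfl⟩ := hz
      have hwN : w ∈ Subgroup.normalizer (Q : Set G) := by
        simpa using mul_mem (inv_mem (Subgroup.le_normalizer (H := Q) hq)) hzN
      rw [hW]
      exact not_le_normalizer_inf F ⟨hWS hw, hwN⟩ (hW ▸ hw) fun h => hzQ (mul_mem hq h)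
  obtain ⟨B, hB⟩ : ∃ B, Minimal (fun B : Subgroup G => B ≤ Q ∧
      M ≤ Subgroup.normalizer (B : Set G) ∧
      ¬ M ≤ Subgroup.normalizer ((B ⊓ W : Subgroup G) : Set G)) B :=
    Set.Finite.exists_minimal (Set.toFinite _) ⟨Q, le_rfl, F.le_normalizer, hQn⟩
  obtain ⟨hBQ, hMB, hBn⟩ := hB.prop
  have hBgen : ∀ U : Subgroup G, M ≤ Subgroup.normalizer (U : Set G) → B ⊓ W ≤ U → B ≤ U := by
    intro U hMU hXU
    have hn : M ≤ Subgroup.normalizer ((B ⊓ U : Subgroup G) : Set G) := fun k hk =>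
      mem_normalizer_of_conj_le fun y hy =>
        ⟨conj_mem_of_normalizer (hMB hk) hy.1, conj_mem_of_normalizer (hMU hk) hy.2⟩
    refine le_trans (hB.2 ⟨inf_le_left.trans hBQ, hn, ?_⟩ inf_le_left) inf_le_right
    rwa [show B ⊓ U ⊓ W = B ⊓ W from le_antisymm (inf_le_inf_right W inf_le_left)
      (le_inf (le_inf inf_le_left hXU) inf_le_right)]
  have hQp : IsPGroup p Q := S.2.to_le F.le_sylow
  have hBQn : Q ≤ Subgroup.normalizer (B : Set G) := F.le.trans hMB
  have hBQB : ⁅B, Q⁆ ≤ B := CoprimeAction.commutator_le_left hBQn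
  have hMBQ : M ≤ Subgroup.normalizer ((⁅B, Q⁆ : Subgroup G) : Set G) := by
    intro k hk
    refine cj_eq_self_iff.1 ?_
    show (⁅B, Q⁆ : Subgroup G).map _ = _
    rw [Subgroup.map_commutator]
    exact congrArg₂ (fun X Y : Subgroup G => ⁅X, Y⁆) (cj_eq_self_iff.2 (hMB hk))
      (cj_eq_self_iff.2 (F.le_normalizer hk))
  obtain ⟨E, hE⟩ : ∃ E, E = ⁅B, Q⁆ ⊓ W := ⟨_, rfl⟩
  have hME : M ≤ Subgroup.normalizer (E : Set G) := by
    by_contra hcon
    have hBle : B ≤ ⁅B, Q⁆ := hB.2 ⟨hBQB.trans hBQ, hMBQ, hE ▸ hcon⟩ hBQB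
    haveI := hQp.isNilpotent
    have hbot : B = ⊥ := eq_bot_of_le_commutator (P := Q) hBQ le_rfl hBle
    refine hBn fun k _ => ?_
    rw [hbot, bot_inf_eq]
    exact mem_normalizer_of_conj_le fun y hy => by
      rw [Subgroup.mem_bot] at hy ⊢; rw [hy]; group
  have hEle : E ≤ B ⊓ W := hE ▸ inf_le_inf_right W hBQB
  have hBQE : ∀ y ∈ B, ∀ q ∈ Q, ⁅y, q⁆ ∈ E := by
    let C : Subgroup G :=
      { carrier := {y | y ∈ M ∧ ∀ q ∈ Q, ⁅y, q⁆ ∈ E}
        one_mem' := ⟨one_mem _, fun q _ => by simp⟩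
        mul_mem' := fun {y z} hy hz => ⟨mul_mem hy.1 hz.1, fun q hq => by
          rw [show ⁅y * z, q⁆ = (y * ⁅z, q⁆ * y⁻¹) * ⁅y, q⁆ by
            simp only [commutatorElement_def]; group]
          exact mul_mem (conj_mem_of_normalizer (hME hy.1) (hz.2 q hq)) (hy.2 q hq)⟩
        inv_mem' := fun {y} hy => ⟨inv_mem hy.1, fun q hq => by
          rw [show ⁅y⁻¹, q⁆ = y⁻¹ * ⁅y, q⁆⁻¹ * y⁻¹⁻¹ by simp only [commutatorElement_def]; group]
          exact conj_mem_of_normalizer (hME (inv_mem hy.1)) (inv_mem (hy.2 q hq))⟩ }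
    have hC : M ≤ Subgroup.normalizer (C : Set G) := fun k hk =>
      mem_normalizer_of_conj_le fun y hy => ⟨mul_mem (mul_mem hk hy.1) (inv_mem hk), fun q hq => by
        have hq' : k⁻¹ * q * k ∈ Q :=
          (Subgroup.mem_normalizer_iff''.1 (F.le_normalizer hk) q).1 hq
        rw [show ⁅k * y * k⁻¹, q⁆ = k * ⁅y, k⁻¹ * q * k⁆ * k⁻¹ by
          simp only [commutatorElement_def]; group]
        exact conj_mem_of_normalizer (hME hk) (hy.2 _ hq')⟩
    have := hBgen C hC fun x hx => ⟨F.le (hBQ hx.1), fun q hq => ?_⟩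
    · exact fun y hy q hq => (this hy).2 q hq
    · refine hE ▸ ⟨Subgroup.commutator_mem_commutator hx.1 hq, ?_⟩
      rw [show ⁅x, q⁆ = x * (q * x⁻¹ * q⁻¹) by simp only [commutatorElement_def]; group]
      exact mul_mem hx.2 (conj_mem_of_normalizer (hSW (F.le_sylow hq)) (inv_mem hx.2))
  have mk : ∀ a ∈ R, a ∉ Q → (∀ y ∈ B, ⁅⁅y, a⁆, a⁆ ∈ E) → ∃ B E a, IsQuadDatum S M Q B E a :=
    fun a ha haQ hq => ⟨B, E, a, ⟨hBQ, hMB, hW ▸ hBn, hW ▸ hBgen, hW ▸ hEle, hME, hBQE, hR ▸ ha,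
      haQ, hq⟩⟩
  by_cases hWQ : W ≤ Q
  swap
  · have hlt : Q < Q ⊔ W := lt_of_le_not_ge le_sup_left fun h => hWQ (le_sup_right.trans h)
    obtain ⟨z, ⟨hz, hzN⟩, hzQ⟩ := SetLike.exists_of_lt
      (lt_inf_normalizer (S.2.to_le (sup_le F.le_sylow hWS)) hlt)
    replace hz : z ∈ ((Q ⊔ W : Subgroup G) : Set G) := hz
    rw [Subgroup.coe_mul_of_left_le_normalizer_right Q W
      (F.le_sylow.trans hSW)] at hz
    obtain ⟨q, hq, w, hw, rfl⟩ := hz
    have hwN : w ∈ Subgroup.normalizer (Q : Set G) := by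
      simpa using mul_mem (inv_mem (Subgroup.le_normalizer (H := Q) hq)) hzN
    refine mk w (hR ▸ ⟨hWS hw, hwN⟩) (fun h => hzQ (mul_mem hq h)) fun y hy => ?_
    have hWab : IsMulCommutative W := isMulCommutative_iff_le_centralizer.2 fun x hx z hz => by
      rw [hW] at hx hz
      exact commute_zj hz hx
    rw [quadratic_of_mem_normalizer hWab (hSW (F.le_sylow (hBQ hy))) hw]
    exact one_mem _
  obtain ⟨C, hC⟩ : ∃ C, C = (S : Subgroup G) ⊓ Subgroup.centralizer (W : Set G) := ⟨_, rfl⟩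
  by_cases hCR : C ≤ R
  swap
  · -- an element of `C_S(W)` normalizing `R` but outside
    have hCn : R ≤ Subgroup.normalizer (C : Set G) := by
      intro r hr
      refine mem_normalizer_of_conj_le fun c hc => ?_
      rw [hC] at hc ⊢
      refine ⟨(S : Subgroup G).mul_mem ((S : Subgroup G).mul_mem (hRS hr) hc.1)
        ((S : Subgroup G).inv_mem (hRS hr)),
        Subgroup.mem_centralizer_iff.2 fun w hw => ?_⟩
      have := Subgroup.mem_centralizer_iff.1 hc.2 _
        ((Subgroup.mem_normalizer_iff''.1 (hSW (hRS hr)) w).1 hw)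
      calc w * (r * c * r⁻¹) = r * (r⁻¹ * w * r * c) * r⁻¹ := by group
        _ = r * c * r⁻¹ * w := by rw [this]; group
    have hlt : R < R ⊔ C := lt_of_le_not_ge le_sup_left fun h => hCR (le_sup_right.trans h)
    obtain ⟨z, ⟨hz, hzN⟩, hzR⟩ := SetLike.exists_of_lt
      (lt_inf_normalizer (S.2.to_le (sup_le hRS (hC ▸ inf_le_left))) hlt)
    replace hz : z ∈ ((R ⊔ C : Subgroup G) : Set G) := hz
    rw [Subgroup.coe_mul_of_left_le_normalizer_right R C hCn] at hz
    obtain ⟨r, hr, s, hs, rfl⟩ := hz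
    have hsR : s ∈ Subgroup.normalizer (R : Set G) := by
      simpa using mul_mem (inv_mem (Subgroup.le_normalizer (H := R) hr)) hzN
    have hsR' : s ∉ R := fun h => hzR (mul_mem hr h)
    rw [hC] at hs
    let L : ℕ → Set G := Nat.rec (M : Set G)
      fun _ L => {g | ∃ m ∈ M, ∃ e, (e = s ∨ e = s⁻¹) ∧ ∃ d ∈ L, g = m * e * d}
    have hL1 : ∀ n g, g ∈ L n → ∀ e, (e = s ∨ e = s⁻¹) → ∀ m ∈ M, g * e * m ∈ L (n + 1) := by
      intro n
      induction n with
      | zero => exact fun g hg e he m hm => ⟨g, hg, e, he, m, hm, rfl⟩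
      | succ n ih =>
        rintro g ⟨m', hm', e', he', d, hd, rfl⟩ e he m hm
        exact ⟨m', hm', e', he', _, ih d hd e he m hm, by group⟩
    have hL2 : ∀ n g, g ∈ L n → g⁻¹ ∈ L n := by
      intro n
      induction n with
      | zero => exact fun g hg => inv_mem hg
      | succ n ih =>
        rintro g ⟨m', hm', e', he', d, hd, rfl⟩
        rw [show (m' * e' * d)⁻¹ = d⁻¹ * e'⁻¹ * m'⁻¹ by group]
        refine hL1 n _ (ih d hd) _ ?_ _ (inv_mem hm')
        rcases he' with h | h <;> simp [h]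
    have hfix : ∀ n g, g ∈ L n → g ∈ Subgroup.normalizer (E : Set G) := by
      intro n
      induction n with
      | zero => exact fun g hg => hME hg
      | succ n ih =>
        rintro g ⟨m', hm', e', he', d, hd, rfl⟩
        refine mul_mem (mul_mem (hME hm') ?_) (ih d hd)
        have hsE : s ∈ Subgroup.normalizer (E : Set G) :=
          Subgroup.centralizer_le_normalizer _
            (Subgroup.centralizer_le (hEle.trans inf_le_right) hs.2)
        rcases he' with rfl | rfl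
        · exact hsE
        · exact inv_mem hsE
    have hall : ¬ ∀ n g, g ∈ L n → cj g B ≤ Q := by
      intro hall
      obtain ⟨Y, hY⟩ : ∃ Y : Subgroup G, Y = ⨆ (n : ℕ) (g : G) (_ : g ∈ L n), cj g B := ⟨_, rfl⟩
      have hle : ∀ n g, g ∈ L n → cj g B ≤ Y := fun n g hg => hY ▸
        le_iSup_of_le n (le_iSup₂ (f := fun g (_ : g ∈ L n) => cj g B) g hg)
      have hinv : ∀ k : G, (∀ n g, g ∈ L n → ∃ n', k * g ∈ L n') →
          k ∈ Subgroup.normalizer (Y : Set G) := by
        intro k hk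
        refine mem_normalizer_of_conj_le fun y hy => ?_
        suffices h : Y ≤ Y.comap (MulAut.conj k).toMonoidHom from h hy
        nth_rw 1 [hY]
        refine iSup_le fun n => iSup₂_le fun g hg => ?_
        obtain ⟨n', hn'⟩ := hk n g hg
        rw [← Subgroup.map_le_iff_le_comap]
        exact (cj_mul k g B).ge.trans (hle n' _ hn')
      have hMY : M ≤ Subgroup.normalizer (Y : Set G) := fun k hk => hinv k fun n g hg => by
        rcases n with - | n
        · exact ⟨0, mul_mem hk hg⟩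
        · obtain ⟨m', hm', e', he', d, hd, rfl⟩ := hg
          exact ⟨n + 1, k * m', mul_mem hk hm', e', he', d, hd, by group⟩
      have hsY : s ∈ Subgroup.normalizer (Y : Set G) := hinv s fun n g hg =>
        ⟨n + 1, 1, one_mem _, s, Or.inl rfl, g, hg, by group⟩
      have hlt' : R < (S : Subgroup G) ⊓ Subgroup.normalizer (Y : Set G) :=
        lt_of_le_not_ge (le_inf hRS (hRM.trans hMY)) fun h => hsR' (h ⟨hs.1, hsY⟩)
      have hrl := F.rl_of_large Y (hY ▸ iSup_le fun n => iSup₂_le fun g hg => hall n g hg) hMY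
        (hR ▸ Set.Finite.card_lt_card (Set.toFinite _) hlt')
      refine hBn fun k hk => mem_normalizer_of_conj_le fun x hx => ?_
      refine ⟨conj_mem_of_normalizer (hMB hk) hx.1, ?_⟩
      obtain ⟨u, hu, hu'⟩ := hrl k hk
      rw [← hu' x (by simpa using hle 0 1 (one_mem M) (conj_mem_cj hx.1))]
      exact conj_mem_of_normalizer (hW ▸ hu) hx.2
    push Not at hall
    obtain ⟨n, ⟨g, hg, hgB⟩, hmin'⟩ :=
      (wellFounded_lt (α := ℕ)).has_min {n | ∃ g ∈ L n, ¬ cj g B ≤ Q} hall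
    have hmin : ∀ n', n' < n → ∀ g ∈ L n', cj g B ≤ Q := fun n' hn' g hg => by
      by_contra h
      exact hmin' n' ⟨g, hg, h⟩ hn'
    rcases n with - | n
    · exact absurd ((cj_mono g hBQ).trans_eq (cj_eq_self_iff.2 (F.le_normalizer hg)))
        (fun h => hgB ((cj_eq_self_iff.2 (hMB hg)).trans_le hBQ))
    obtain ⟨m', hm', e, he, d, hd, rfl⟩ := hg
    have heR : e ∈ Subgroup.normalizer (R : Set G) := by
      rcases he with rfl | rfl
      · exact hsR
      · exact inv_mem hsR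
    have hdQ : cj d B ≤ Q := hmin n n.lt_succ_self d hd
    have hBR : cj (e * d) B ≤ R := by
      rw [cj_mul]
      exact (cj_mono e (hdQ.trans hQR)).trans_eq (cj_eq_self_iff.2 heR)
    have hBQ' : ¬ cj (e * d) B ≤ Q := by
      intro h
      refine hgB ?_
      rw [mul_assoc m' e d, cj_mul]
      exact (cj_mono m' h).trans_eq (cj_eq_self_iff.2 (F.le_normalizer hm'))
    have hBn' : B ≤ Subgroup.normalizer (cj (e * d) B : Set G) := by
      have hinvL : (e * d)⁻¹ ∈ L (n + 1) :=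
        hL2 (n + 1) (e * d) ⟨1, one_mem _, e, he, d, hd, by group⟩
      obtain ⟨m₂, hm₂, e₂, he₂, d₂, hd₂, heq⟩ := hinvL
      have he₂R : e₂ ∈ Subgroup.normalizer (R : Set G) := by
        rcases he₂ with rfl | rfl
        · exact hsR
        · exact inv_mem hsR
      have hle₂ : cj (e * d)⁻¹ B ≤ M := by
        rw [heq, cj_mul, cj_mul]
        refine (cj_mono m₂ ?_).trans_eq (cj_eq_self_iff.2 (Subgroup.le_normalizer hm₂))
        exact ((cj_mono e₂ ((hmin n n.lt_succ_self d₂ hd₂).trans hQR)).trans_eq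
          (cj_eq_self_iff.2 he₂R)).trans hRM
      refine le_trans ?_ (Subgroup.le_normalizer_map (MulAut.conj (e * d)).toMonoidHom)
      have h2 := cj_mono (e * d) (hle₂.trans hMB)
      rwa [cj_cj_inv] at h2
    obtain ⟨b, hb, hbQ⟩ := SetLike.not_le_iff_exists.1 hBQ'
    refine mk b (hBR hb) hbQ fun y hy => ?_
    have hyb : ⁅y, b⁆ ∈ cj (e * d) B := by
      rw [commutatorElement_def]
      exact mul_mem (conj_mem_of_normalizer (hBn' hy) hb) (inv_mem hb)
    rw [mem_cj] at hyb hb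
    have hmem := hBQE _ hyb _ (hBQ hb)
    have hedE : e * d ∈ Subgroup.normalizer (E : Set G) :=
      hfix (n + 1) (e * d) ⟨1, one_mem _, e, he, d, hd, by group⟩
    have := conj_mem_of_normalizer hedE hmem
    rwa [show (e * d) * ⁅(e * d)⁻¹ * ⁅y, b⁆ * (e * d), (e * d)⁻¹ * b * (e * d)⁆ * (e * d)⁻¹ =
      ⁅⁅y, b⁆, b⁆ by simp only [commutatorElement_def]; group] at this
  · -- `J(S)` lies in `R` but not in `Q`
    have hJC : thompsonSubgroupAOf (S : Subgroup G) ≤ C := by
      rw [hC]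
      refine le_inf (thompsonSubgroupAOf_le _) (Subgroup.le_centralizer_iff.1 ?_)
      rw [hW]
      exact inf_le_right
    have hJR : thompsonSubgroupAOf (S : Subgroup G) ≤ R := hJC.trans hCR
    have hJQ : ¬ thompsonSubgroupAOf (S : Subgroup G) ≤ Q := by
      intro hle
      obtain ⟨m, hm, hmR⟩ := F.exists_not_rl
      refine hmR (Rl.of_mem ?_)
      have h1 := normalizer_le_normalizer_thompsonSubgroupAOf Q (F.le_normalizer hm)
      rw [thompsonSubgroupAOf_eq_of_le F.le_sylow hle] at h1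
      exact normalizer_le_normalizer_inf_centralizer _ h1
    rw [thompsonSubgroupAOf_le_iff] at hJQ
    push Not at hJQ
    obtain ⟨A₀, hA₀, hA₀Q⟩ := hJQ
    obtain ⟨A, ⟨hA, hAQ⟩, hmax⟩ := Set.exists_max_image
      {A : Subgroup G | IsMaxAbelian (S : Subgroup G) A ∧ ¬ A ≤ Q}
      (fun A => Nat.card ↥(A ⊓ B)) (Set.toFinite _) ⟨A₀, hA₀, hA₀Q⟩
    have hAR : A ≤ R := (le_thompsonSubgroupAOf hA).trans hJR
    have hWA : W ≤ A := hW ▸ zj_le_of_isMaxAbelian hA
    by_cases hn : B ≤ Subgroup.normalizer (A : Set G)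
    · obtain ⟨a, ha, haQ⟩ := SetLike.not_le_iff_exists.1 hAQ
      refine mk a (hAR ha) haQ fun y hy => ?_
      rw [quadratic_of_mem_normalizer hA.comm (hn hy) ha]
      exact one_mem _
    exfalso
    have hBA : ⁅B, B⁆ ≤ A := by
      rw [Subgroup.commutator_le]
      exact fun y hy z hz => hWA (hEle (hBQE y hy z (hBQ hz))).2
    obtain ⟨c, hc, hcA⟩ := exists_replacementSetup (A := A) (B := B) (S.2.to_le hRS) hAR
      (hBQ.trans hQR) (hRM.trans hMB) hA.comm
      (le_bot_iff.1 (le_trans (Subgroup.commutator_mono hBA le_rfl)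
        (Subgroup.commutator_eq_bot_iff_le_centralizer.2
          (isMulCommutative_iff_le_centralizer.1 hA.comm)).le)) hn
    have hBp : IsPGroup p B := hQp.to_le hBQ
    have hab := hc.isMulCommutative_replacement hBp
      (Or.inl (Nat.Prime.odd_of_ne_two Fact.out hp))
    have hA'S : replacement A c ≤ (S : Subgroup G) := by
      refine sup_le (inf_le_left.trans hA.le) ((Subgroup.closure_le _).2 ?_)
      rintro _ ⟨a, ha, rfl⟩
      exact F.le_sylow (hBQ (hc.commutator_mem ha))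
    have hA' : IsMaxAbelian (S : Subgroup G) (replacement A c) := ⟨hA'S, hab, fun D hD hDc => by
      rw [hc.card_replacement hBA hab]
      exact hA.card_le D hD hDc⟩
    have hA'Q : replacement A c ≤ Q := by
      by_contra h
      exact (hmax _ ⟨hA', h⟩).not_gt (Set.Finite.card_lt_card (Set.toFinite _)
        (hc.inf_lt_replacement_inf hBA hcA))
    refine hn (le_trans ?_ hc.replacement_le_normalizer)
    let U : Subgroup G := ⨅ (m : G) (_ : m ∈ M), cj m (replacement A c)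
    refine (hBgen U (fun k hk => mem_normalizer_of_conj_le fun y hy => ?_) fun x hx => ?_).trans
      ((iInf₂_le (1 : G) (one_mem M)).trans_eq (cj_one _))
    · simp only [U, Subgroup.mem_iInf, mem_cj] at hy ⊢
      intro m hm
      have := hy (k⁻¹ * m) (mul_mem (inv_mem hk) hm)
      rwa [show (k⁻¹ * m)⁻¹ * y * (k⁻¹ * m) = m⁻¹ * (k * y * k⁻¹) * m by group] at this
    · simp only [U, Subgroup.mem_iInf]
      intro m hm
      have hm' : IsMaxAbelian (S : Subgroup G) (cj m (replacement A c)) :=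
        ⟨(cj_mono m hA'Q).trans ((cj_eq_self_iff.2 (F.le_normalizer hm)).trans_le F.le_sylow),
          isMulCommutative_map hA'.comm _, fun D hD hDc => by
            rw [card_cj]; exact hA'.card_le D hD hDc⟩
      exact zj_le_of_isMaxAbelian hm' (hW ▸ hx.2)

end CfsgLib.ZJFailure
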