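import Cfsg.Agent.Lib.ZJFailure.Basic
import Cfsg.Agent.Lib.QdFree.QuadPair

/-!
Two conjugate quadratic elements on an irreducible section `V` of an abelian `p`-group `Y`: the torus
they generate lies in the given maximal part `M₀` and has an eigenvector in the `M₀`-invariant
subgroup `X` generating `Y` normally.
-/

set_option autoImplicit false
set_option linter.style.haveILetI false

open Matrix
open scoped MatrixGroups commutatorElement IsMulCommutative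

namespace CfsgLib.ZJFailure

open CfsgLib.ConjFunctor CfsgLib.NormalPComplement CfsgLib.QdFree
open CfsgLib.SL2.Dickson (lowS lowS_coe)
open CfsgLib.ClassicalLinear (upS upS_coe)

/-- The diagonal matrices of `SL₂`. -/
def torusS {F : Type*} [Field F] : Fˣ →* SL(2, F) where
  toFun u := ⟨!![(u : F), 0; 0, ((u⁻¹ : Fˣ) : F)], by simp [Matrix.det_fin_two_of]⟩
  map_one' := by
    apply Subtype.ext
    ext i j
    fin_cases i <;> fin_cases j <;> simp
  map_mul' u v := by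
    apply Subtype.ext
    show !![((u * v : Fˣ) : F), 0; 0, (((u * v)⁻¹ : Fˣ) : F)] =
      !![(u : F), 0; 0, ((u⁻¹ : Fˣ) : F)] * !![(v : F), 0; 0, ((v⁻¹ : Fˣ) : F)]
    ext i j
    fin_cases i <;> fin_cases j <;> simp [Matrix.mul_apply, Fin.sum_univ_two, mul_comm]

theorem torusS_coe {F : Type*} [Field F] (u : Fˣ) :
    (torusS u : Matrix (Fin 2) (Fin 2) F) = !![(u : F), 0; 0, ((u⁻¹ : Fˣ) : F)] := rfl

theorem torusS_mul_upS {F : Type*} [Field F] (u : Fˣ) (x : F) :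
    torusS u * upS x = upS ((u : F) * u * x) * torusS u := by
  apply Subtype.ext
  rw [Matrix.SpecialLinearGroup.coe_mul, Matrix.SpecialLinearGroup.coe_mul, upS_coe, upS_coe,
    torusS_coe]
  ext i j
  fin_cases i <;> fin_cases j <;> simp [Matrix.mul_apply, Fin.sum_univ_two]
  field_simp

variable {Γ : Type*} [Group Γ] [Finite Γ] {p : ℕ} [Fact p.Prime]

/-- The configuration inside the pair group modulo `Z₀`. -/
structure IsTorusConfig (p : ℕ) (Y V X D M₀ : Subgroup Γ) (a b : Γ) : Prop where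
  normal_Y : Y.Normal
  comm_Y : IsMulCommutative Y
  isPGroup_Y : IsPGroup p Y
  normal_V : V.Normal
  V_le : V ≤ Y
  V_ne : V ≠ ⊥
  irr : ∀ U : Subgroup Γ, U.Normal → U ≤ V → U = ⊥ ∨ U = V
  series : ∀ o : Γ, (orderOf o).Coprime p → ∀ y ∈ Y, y⁻¹ * (o * y * o⁻¹) ∈ V
  nontrivial : ∃ o : Γ, (orderOf o).Coprime p ∧ o ∉ Subgroup.centralizer (V : Set Γ)
  normal_D : D.Normal
  isPGroup_D : IsPGroup p D
  gen : D ⊔ Subgroup.closure ({a, b} : Set Γ) = ⊤
  isConj : ∃ k : Γ, b = k * a * k⁻¹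
  quadratic_a : ∀ v ∈ V, ⁅⁅v, a⁆, a⁆ = 1
  quadratic_b : ∀ v ∈ V, ⁅⁅v, b⁆, b⁆ = 1
  isPGroup_a : IsPGroup p (Subgroup.zpowers a)
  D_le : D ≤ M₀
  mem_a : a ∈ M₀
  proper : M₀ ≠ ⊤
  minimal : ∀ L : Subgroup Γ, D ≤ L → a ∈ L → L ≠ ⊤ → L ≤ M₀
  normalizer_le : ∀ P : Subgroup Γ, IsPGroup p P → D ≤ P → a ∈ P →
    Subgroup.normalizer (P : Set Γ) ≤ M₀
  X_le : X ≤ Y
  normalizer_X : M₀ ≤ Subgroup.normalizer (X : Set Γ)
  X_gen : ∀ U : Subgroup Γ, U.Normal → X ≤ U → Y ≤ U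

/-- The conclusion: a torus element with the natural relations and an eigenvector in `X`. -/
theorem IsTorusConfig.exists_torus {Y V X D M₀ : Subgroup Γ} {a b : Γ} (hp : p ≠ 2)
    (C : IsTorusConfig p Y V X D M₀ a b) :
    ∃ (t : Γ) (e : (ZMod p)ˣ), t ∈ M₀ ∧ (∀ z : (ZMod p)ˣ, z ∈ Subgroup.zpowers e) ∧
      (∃ v ∈ V, ∃ u ∈ V, v ≠ 1 ∧ v ^ p = 1 ∧ u ^ p = 1 ∧ a * v * a⁻¹ = v ∧
        a * u * a⁻¹ = v * u ∧ t * v * t⁻¹ = v ^ (e : ZMod p).val ∧
        t * u * t⁻¹ = u ^ ((e⁻¹ : (ZMod p)ˣ) : ZMod p).val) ∧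
      ∃ (x : Γ) (f : (ZMod p)ˣ), x ∈ X ∧ x ∈ V ∧ x ≠ 1 ∧ (f = e ∨ f = e⁻¹) ∧
        t * x * t⁻¹ = x ^ (f : ZMod p).val := by
  classical
  haveI := C.normal_Y
  haveI := C.normal_V
  haveI := C.normal_D
  haveI := C.comm_Y
  haveI hVc : IsMulCommutative V := isMulCommutative_iff_le_centralizer.2
    (C.V_le.trans ((isMulCommutative_iff_le_centralizer.1 C.comm_Y).trans
      (Subgroup.centralizer_le C.V_le)))
  have hVp : IsPGroup p V := C.isPGroup_Y.to_le C.V_le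
  -- `V` has exponent `p`
  have hV1 : ∀ v ∈ V, v ^ p = 1 := by
    let U : Subgroup Γ :=
      { carrier := {v | v ∈ V ∧ v ^ p = 1}
        one_mem' := ⟨one_mem _, one_pow _⟩
        mul_mem' := fun {x y} hx hy => ⟨mul_mem hx.1 hy.1, by
          have hxy : Commute x y :=
            congrArg Subtype.val (mul_comm' (⟨x, hx.1⟩ : V) ⟨y, hy.1⟩)
          rw [hxy.mul_pow, hx.2, hy.2, one_mul]⟩
        inv_mem' := fun {x} hx => ⟨inv_mem hx.1, by rw [inv_pow, hx.2, inv_one]⟩ }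
    have hU : U.Normal := ⟨fun v hv g => ⟨C.normal_V.conj_mem v hv.1 g, by
      rw [conj_pow, hv.2]; simp⟩⟩
    haveI : Nontrivial V := (Subgroup.nontrivial_iff_ne_bot V).2 C.V_ne
    obtain ⟨z, hz⟩ := exists_prime_orderOf_dvd_card' (G := V) p (by
      obtain ⟨k, hk⟩ := IsPGroup.iff_card.1 hVp
      rw [hk]
      refine dvd_pow_self p fun h0 => ?_
      rw [h0, pow_zero] at hk
      exact absurd hk (Finite.one_lt_card (α := V)).ne')
    have hzU : (z : Γ) ∈ U := ⟨z.2, by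
      have := pow_orderOf_eq_one z
      rw [hz] at this
      simpa using congrArg Subtype.val this⟩
    have hz1 : (z : Γ) ≠ 1 := fun h => by
      rw [show z = 1 from Subtype.ext h, orderOf_one] at hz
      exact (Fact.out : p.Prime).one_lt.ne hz
    rcases C.irr U hU (fun v hv => hv.1) with e | e
    · exact absurd (Subgroup.mem_bot.1 (e ▸ hzU : (z : Γ) ∈ (⊥ : Subgroup Γ))) hz1
    · exact fun v hv => (e.symm ▸ hv : v ∈ U).2
  -- `D` centralizes `V`
  have hDV : D ≤ Subgroup.centralizer (V : Set Γ) := by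
    rcases C.irr ⁅V, D⁆ inferInstance (Subgroup.commutator_le_left V D) with e | e
    · exact Subgroup.le_centralizer_iff.1 (Subgroup.commutator_eq_bot_iff_le_centralizer.1 e)
    · haveI := (hVp.to_sup_of_normal_left (H := V) C.isPGroup_D).isNilpotent
      exact absurd (eq_bot_of_le_commutator (P := V ⊔ D) le_sup_left le_sup_right e.ge) C.V_ne
  -- the representation
  let ρ : Γ →* AddMonoid.End (Additive V) :=
    { toFun := fun n => ((MulAut.conjNormal n : MulAut V)).toMonoidHom.toAdditive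
      map_one' := by rw [map_one]; rfl
      map_mul' := fun x y => by rw [map_mul]; rfl }
  have hρ : ∀ n x, (((ρ n x : Additive V).toMul : V) : Γ) = n * ((x.toMul : V) : Γ) * n⁻¹ :=
    fun n x => MulAut.conjNormal_apply n x.toMul
  have hext : ∀ {x y : Additive V}, ((x.toMul : V) : Γ) = ((y.toMul : V) : Γ) → x = y :=
    fun h => Additive.toMul.injective (Subtype.ext h)
  have hker : ∀ n, ρ n = 1 ↔ n ∈ Subgroup.centralizer (V : Set Γ) := by
    intro n
    refine ⟨fun h => Subgroup.mem_centralizer_iff.2 fun v hv => ?_, fun h => ?_⟩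
    · have h1 := hρ n (Additive.ofMul ⟨v, hv⟩)
      rw [h] at h1
      have h2 : v = n * v * n⁻¹ := h1
      calc v * n = n * v * n⁻¹ * n := by rw [← h2]
        _ = n * v := by group
    · refine AddMonoidHom.ext fun x => hext ((hρ n x).trans ?_)
      show n * ((x.toMul : V) : Γ) * n⁻¹ = ((x.toMul : V) : Γ)
      rw [← Subgroup.mem_centralizer_iff.1 h _ x.toMul.2, mul_inv_cancel_right]
  have hA : ∀ x : Additive V, p • x = 0 := fun x =>
    hext (by simpa using hV1 _ x.toMul.2)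
  have hquad : ∀ n : Γ, (∀ v ∈ V, ⁅⁅v, n⁆, n⁆ = 1) → (ρ n - 1) * (ρ n - 1) = 0 := by
    intro n hn
    refine AddMonoidHom.ext fun x => ?_
    show ρ n (ρ n x - x) - (ρ n x - x) = 0
    rw [sub_eq_zero]
    apply hext
    rw [hρ]
    have hval : (((ρ n x - x).toMul : V) : Γ) = ⁅((x.toMul : V) : Γ), n⁆⁻¹ := by
      rw [toMul_sub, div_eq_mul_inv, Subgroup.coe_mul, Subgroup.coe_inv, hρ, commutatorElement_def]
      group
    rw [hval]
    have hc : Commute n ⁅((x.toMul : V) : Γ), n⁆⁻¹ :=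
      (commutatorElement_eq_one_iff_commute.1 (hn _ x.toMul.2)).symm.inv_right
    rw [hc.eq, mul_inv_cancel_right]
  obtain ⟨o₀, ho₀, ho₀V⟩ := C.nontrivial
  have hCn : (Subgroup.centralizer (V : Set Γ)).Normal := inferInstance
  have haV : a ∉ Subgroup.centralizer (V : Set Γ) := by
    intro ha
    obtain ⟨k, hk⟩ := C.isConj
    refine ho₀V ((?_ : (⊤ : Subgroup Γ) ≤ _) (Subgroup.mem_top o₀))
    rw [← C.gen]
    exact sup_le hDV ((Subgroup.closure_le _).2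
      (Set.pair_subset ha (hk ▸ hCn.conj_mem a ha k)))
  obtain ⟨α, hα⟩ : ∃ α, α = ρ a - 1 := ⟨_, rfl⟩
  have hα0 : α ≠ 0 := fun h => haV ((hker a).1 (sub_eq_zero.1 (hα ▸ h)))
  have hirr : ∀ W : AddSubgroup (Additive V), (∀ x ∈ W, (ρ a - 1) x ∈ W) →
      (∀ x ∈ W, (ρ b - 1) x ∈ W) → W = ⊥ ∨ W = ⊤ := by
    intro W hWa hWb
    let U : Subgroup Γ := (AddSubgroup.toSubgroup' W).map V.subtype
    have hUV : U ≤ V := Subgroup.map_subtype_le _
    have hnorm : ∀ n : Γ, (∀ x ∈ W, (ρ n - 1) x ∈ W) → n ∈ Subgroup.normalizer (U : Set Γ) := by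
      intro n hn
      refine mem_normalizer_of_conj_le ?_
      rintro _ ⟨v, hv, rfl⟩
      refine ⟨(ρ n (Additive.ofMul v)).toMul, ?_, hρ n _⟩
      show ρ n (Additive.ofMul v) ∈ W
      have hv' : Additive.ofMul v ∈ W := hv
      have h1 : ρ n (Additive.ofMul v) - Additive.ofMul v ∈ W := hn _ hv'
      simpa using add_mem h1 hv'
    have hU : U.Normal := by
      rw [← Subgroup.normalizer_eq_top_iff, eq_top_iff, ← C.gen]
      exact sup_le ((hDV.trans (Subgroup.centralizer_le hUV)).trans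
        (Subgroup.centralizer_le_normalizer _))
        ((Subgroup.closure_le _).2 (Set.pair_subset (hnorm a hWa) (hnorm b hWb)))
    rcases C.irr U hU hUV with e | e
    · refine Or.inl (eq_bot_iff.2 fun x hx => ?_)
      have : ((x.toMul : V) : Γ) ∈ U := ⟨x.toMul, hx, rfl⟩
      rw [e, Subgroup.mem_bot] at this
      exact AddSubgroup.mem_bot.2 (hext this)
    · refine Or.inr (eq_top_iff.2 fun x _ => ?_)
      obtain ⟨v, hv, hvx⟩ : ((x.toMul : V) : Γ) ∈ U := e.symm ▸ x.toMul.2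
      exact (hext hvx.symm : x = Additive.ofMul v) ▸ hv
  obtain ⟨γ, hγ, hαγ, hmem⟩ := exists_dual_quadratic hp hA (hquad a C.quadratic_a)
    (hquad b C.quadratic_b) (hα ▸ hα0) hirr
  rw [add_sub_cancel, add_sub_cancel, ← Set.image_pair, ← MonoidHom.map_mclosure] at hmem
  obtain ⟨c₀, -, hc₀⟩ := hmem
  rw [← hα] at hαγ
  have hαα : α * α = 0 := hα ▸ hquad a C.quadratic_a
  haveI : Nontrivial (AddMonoid.End (Additive V)) := ⟨⟨α, 0, hα0⟩⟩
  haveI : CharP (AddMonoid.End (Additive V)) p :=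
    (CharP.charP_iff_prime_eq_zero Fact.out).2 (AddMonoidHom.ext fun x =>
      (AddMonoid.End.natCast_apply p x).trans (hA x))
  let ι : ZMod p →+* AddMonoid.End (Additive V) := ZMod.castHom dvd_rfl _
  have hι : ∀ (k : ZMod p) (x : Additive V), ι k x = k.val • x := by
    intro k x
    rw [show ι k = (k.val : AddMonoid.End (Additive V)) by
      conv_lhs => rw [← ZMod.natCast_zmod_val k]
      rw [map_natCast], AddMonoid.End.natCast_apply]
  have hcomm : ∀ (k : ZMod p) (z : AddMonoid.End (Additive V)), Commute (ι k) z := by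
    intro k z
    conv_lhs => rw [← ZMod.natCast_zmod_val k, map_natCast]
    exact Nat.cast_commute _ z
  let Θ := unitsHom ι hαα hγ hαγ (fun k => hcomm k α) (fun k => hcomm k γ)
  have hΘa : Θ (upS 1) = ρ a := by
    show unitsMap ι α γ _ = _
    rw [unitsMap_upS ι hαγ, map_one, one_mul, hα, add_sub_cancel]
  have hΘc : Θ (lowS 1) = ρ c₀ := by
    show unitsMap ι α γ _ = _
    rw [unitsMap_lowS ι hαγ, map_one, one_mul, hc₀]
  have hsurj : ∀ A : SL(2, ZMod p), ∃ g : Γ, ρ g = Θ A := by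
    intro A
    have htop : Subgroup.closure ({upS 1, lowS 1} : Set SL(2, ZMod p)) = ⊤ := by
      refine CfsgLib.SL2.Dickson.eq_top_of_prime_field (lam := (1 : ZMod p)) (n₀ := 1) one_ne_zero
        ?_ Nat.cast_one.symm (Subgroup.subset_closure (by simp)) (Subgroup.subset_closure (by simp))
      rw [eq_top_iff]
      intro z _
      obtain ⟨k, rfl⟩ := ZMod.natCast_zmod_surjective z
      exact natCast_mem _ k
    have hA : A ∈ (Subgroup.closure ({upS 1, lowS 1} : Set SL(2, ZMod p))).toSubmonoid :=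
      htop ▸ Subgroup.mem_top A
    rw [Subgroup.closure_toSubmonoid_of_finite] at hA
    have h := Submonoid.mem_map_of_mem Θ hA
    rw [MonoidHom.map_mclosure, Set.image_pair, hΘa, hΘc, ← Set.image_pair,
      ← MonoidHom.map_mclosure] at h
    obtain ⟨g, -, hg⟩ := h
    exact ⟨g, hg⟩
  -- elements acting diagonally are in `M₀`
  obtain ⟨N₀, hN₀⟩ : ∃ N₀, N₀ = Subgroup.centralizer (V : Set Γ) ⊔ Subgroup.zpowers a := ⟨_, rfl⟩
  have hN₀ne : N₀ ≠ ⊤ := by
    intro htop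
    have ho : o₀ ∈ ((N₀ : Subgroup Γ) : Set Γ) := htop ▸ Subgroup.mem_top o₀
    rw [hN₀, Subgroup.normal_mul] at ho
    obtain ⟨z, hz, w, ⟨i, rfl⟩, hzw⟩ := ho
    refine ho₀V ((hker o₀).1 ?_)
    have h1 : ρ o₀ = ρ (a ^ i) := by
      rw [← hzw, map_mul, (hker z).2 hz, one_mul]
    obtain ⟨k, hk⟩ := C.isPGroup_a ⟨a, Subgroup.mem_zpowers a⟩
    have h2 : ρ o₀ ^ p ^ k = 1 := by
      rw [h1, ← map_pow, ← zpow_natCast, ← _root_.zpow_mul, mul_comm, _root_.zpow_mul, zpow_natCast,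
        show a ^ p ^ k = 1 by simpa using congrArg Subtype.val hk, _root_.one_zpow, map_one]
    have h3 : ρ o₀ ^ orderOf o₀ = 1 := by rw [← map_pow, pow_orderOf_eq_one, map_one]
    exact orderOf_eq_one_iff.1 (Nat.eq_one_of_dvd_coprimes (ho₀.symm.pow_left k)
      (orderOf_dvd_of_pow_eq_one h2) (orderOf_dvd_of_pow_eq_one h3))
  have hN₀le : N₀ ≤ M₀ := C.minimal N₀ (hDV.trans (hN₀ ▸ le_sup_left))
    (hN₀ ▸ Subgroup.mem_sup_right (Subgroup.mem_zpowers a)) hN₀ne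
  have hdiag : ∀ (g : Γ) (w : (ZMod p)ˣ), ρ g = Θ (torusS w) → g ∈ M₀ := by
    intro g w hg
    have hgN : g ∈ Subgroup.normalizer (N₀ : Set Γ) := by
      refine mem_normalizer_of_conj_le fun y hy => ?_
      suffices h : N₀ ≤ N₀.comap (MulAut.conj g).toMonoidHom from h hy
      nth_rw 1 [hN₀]
      refine sup_le (fun z hz => hN₀ ▸ Subgroup.mem_sup_left (hCn.conj_mem z hz g))
        (Subgroup.zpowers_le.2 ?_)
      show g * a * g⁻¹ ∈ N₀
      obtain ⟨n, hn⟩ := ZMod.natCast_zmod_surjective ((w : ZMod p) * (w : ZMod p))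
      have h1 : ρ (g * a) = ρ (a ^ n * g) := by
        rw [map_mul, map_mul, map_pow, hg, ← hΘa, ← map_pow, ← map_mul, ← map_mul,
          torusS_mul_upS, mul_one, ← hn, ← mul_one ((n : ℕ) : ZMod p),
          CfsgLib.SL2.Dickson.upS_nsmul]
      have h2 : (a ^ n)⁻¹ * (g * a * g⁻¹) ∈ Subgroup.centralizer (V : Set Γ) := by
        refine (hker _).1 ?_
        rw [show (a ^ n)⁻¹ * (g * a * g⁻¹) = (a ^ n)⁻¹ * (g * a) * g⁻¹ by group, map_mul,
          map_mul, h1, ← map_mul, ← map_mul]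
        simp
      rw [show g * a * g⁻¹ = a ^ n * ((a ^ n)⁻¹ * (g * a * g⁻¹)) by group, hN₀]
      exact mul_mem (Subgroup.mem_sup_right (Subgroup.npow_mem_zpowers a n))
        (Subgroup.mem_sup_left h2)
    obtain ⟨T, hDT, hTN, hT, hTi⟩ := exists_sylow_ge (H := N₀)
      (C.isPGroup_D.to_sup_of_normal_left C.isPGroup_a)
      (sup_le (hDV.trans (hN₀ ▸ le_sup_left)) (hN₀ ▸ le_sup_right))
    obtain ⟨z, hz, n, hn, rfl⟩ := exists_frattini (Subgroup.le_normalizer (H := N₀)) le_rfl hT hTN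
      hTi hgN
    exact mul_mem (hN₀le hz) (C.normalizer_le T hT (le_sup_left.trans hDT)
      (hDT (Subgroup.mem_sup_right (Subgroup.mem_zpowers a))) hn.2)
  have hCle : Subgroup.centralizer (V : Set Γ) ≤ M₀ := le_trans (hN₀ ▸ le_sup_left) hN₀le
  -- coprime elements with prescribed diagonal action
  have hlift : ∀ w : (ZMod p)ˣ, ∃ g : Γ, ρ g = Θ (torusS w) ∧ (orderOf g).Coprime p := by
    intro w
    obtain ⟨g, hg⟩ := hsurj (torusS w)
    obtain ⟨k, hk⟩ := exists_pow_coprime_orderOf (p := p) (isOfFinOrder_of_finite g)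
    refine ⟨g ^ p ^ k, ?_, hk⟩
    rw [map_pow, hg, ← map_pow, ← map_pow]
    congr 2
    apply Units.ext
    rw [Units.val_pow_eq_pow_val]
    exact ZMod.pow_card_pow (w : ZMod p)
  have hscal : ∀ k : ZMod p, unitsMap ι α γ (k • (1 : Matrix (Fin 2) (Fin 2) (ZMod p))) = ι k := by
    intro k
    simp [unitsMap, ← mul_add, hαγ]
  -- `X` meets `V`
  have hXV : X ⊓ V ≠ ⊥ := by
    intro hbot
    obtain ⟨t₀, ht₀, ht₀p⟩ := hlift (-1)
    have ht₀M : t₀ ∈ M₀ := hdiag t₀ (-1) ht₀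
    have hΘneg : Θ (torusS (-1 : (ZMod p)ˣ)) = -1 := by
      show unitsMap ι α γ _ = _
      rw [show (torusS (-1 : (ZMod p)ˣ) : Matrix (Fin 2) (Fin 2) (ZMod p)) =
        (-1 : ZMod p) • (1 : Matrix (Fin 2) (Fin 2) (ZMod p)) by
          ext i j; fin_cases i <;> fin_cases j <;> simp [torusS_coe],
        hscal, map_neg, map_one]
    have ht₀V : ∀ v ∈ V, t₀ * v * t₀⁻¹ = v⁻¹ := by
      intro v hv
      have h := hρ t₀ (Additive.ofMul ⟨v, hv⟩)
      rw [ht₀, hΘneg] at h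
      exact h.symm
    let Ser : Subgroup Γ :=
      { carrier := {g | ∀ y ∈ Y, y⁻¹ * (g * y * g⁻¹) ∈ V}
        one_mem' := fun y _ => by simp
        mul_mem' := fun {g h} hg hh y hy => by
          have h2 := hg _ (C.normal_Y.conj_mem y hy h)
          rw [show y⁻¹ * (g * h * y * (g * h)⁻¹) = (y⁻¹ * (h * y * h⁻¹)) *
            ((h * y * h⁻¹)⁻¹ * (g * (h * y * h⁻¹) * g⁻¹)) by group]
          exact V.mul_mem (hh y hy) h2
        inv_mem' := fun {g} hg y hy => by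
          have h2 := hg _ (C.normal_Y.conj_mem y hy g⁻¹)
          rw [show y⁻¹ * (g⁻¹ * y * g⁻¹⁻¹) =
            ((g⁻¹ * y * g⁻¹⁻¹)⁻¹ * (g * (g⁻¹ * y * g⁻¹⁻¹) * g⁻¹))⁻¹ by group]
          exact V.inv_mem h2 }
    have ht₀Ser : t₀ ∈ Ser := C.series t₀ ht₀p
    have ht₀X : ∀ x ∈ X, t₀ * x * t₀⁻¹ = x := by
      intro x hx
      have h1 : x⁻¹ * (t₀ * x * t₀⁻¹) ∈ X ⊓ V :=
        ⟨X.mul_mem (X.inv_mem hx) (conj_mem_of_normalizer (C.normalizer_X ht₀M) hx),
          ht₀Ser x (C.X_le hx)⟩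
      rw [hbot, Subgroup.mem_bot, inv_mul_eq_one] at h1
      exact h1.symm
    have hXtop : Subgroup.normalizer (X : Set Γ) ≠ ⊤ := by
      intro htop
      have h1 : V ≤ X ⊓ V := le_inf (C.V_le.trans (C.X_gen X
        (Subgroup.normalizer_eq_top_iff.1 htop) le_rfl)) le_rfl
      rw [hbot] at h1
      exact C.V_ne (le_bot_iff.1 h1)
    have hXle : Subgroup.normalizer (X : Set Γ) ≤ M₀ :=
      C.minimal _ (C.D_le.trans C.normalizer_X) (C.normalizer_X C.mem_a) hXtop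
    have hall : ∀ g : Γ, (orderOf g).Coprime p → g ∈ M₀ := by
      intro g hg
      have hgSer : g ∈ Ser := C.series g hg
      obtain ⟨δ, hδ⟩ : ∃ δ, δ = g * t₀ * g⁻¹ * t₀⁻¹ := ⟨_, rfl⟩
      have hδSer : δ ∈ Ser :=
        hδ ▸ mul_mem (mul_mem (mul_mem hgSer ht₀Ser) (inv_mem hgSer)) (inv_mem ht₀Ser)
      have hδC : δ ∈ Subgroup.centralizer (V : Set Γ) := by
        refine Subgroup.mem_centralizer_iff.2 fun v hv => (mul_inv_eq_iff_eq_mul.1 ?_).symm
        have hv1 : t₀⁻¹ * v * t₀ = v⁻¹ := by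
          have := ht₀V _ (V.inv_mem hv)
          rw [inv_inv] at this
          calc t₀⁻¹ * v * t₀ = t₀⁻¹ * (t₀ * v⁻¹ * t₀⁻¹) * t₀ := by rw [this]
            _ = v⁻¹ := by group
        have hv2 : g⁻¹ * v⁻¹ * g ∈ V := by
          simpa using C.normal_V.conj_mem _ (V.inv_mem hv) g⁻¹
        calc δ * v * δ⁻¹ = g * (t₀ * (g⁻¹ * (t₀⁻¹ * v * t₀) * g) * t₀⁻¹) * g⁻¹ := by
              rw [hδ]; group
          _ = v := by rw [hv1, ht₀V _ hv2]; group
      have hfix : ∀ v ∈ V, δ * v * δ⁻¹ = v := fun v hv => by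
        rw [← Subgroup.mem_centralizer_iff.1 hδC v hv]; group
      obtain ⟨m, hm⟩ := (Nat.Prime.odd_of_ne_two (Fact.out : p.Prime) hp).add_one
      obtain ⟨k, hk⟩ : ∃ k, k = δ ^ m := ⟨_, rfl⟩
      have hkM : k ∈ M₀ := hk ▸ hCle (pow_mem hδC m)
      obtain ⟨g', hg'⟩ : ∃ g', g' = k⁻¹ * g := ⟨_, rfl⟩
      have hg'Ser : g' ∈ Ser := hg' ▸ mul_mem (inv_mem (hk ▸ pow_mem hδSer m)) hgSer
      have hcY : ∀ {x y : Γ}, x ∈ Y → y ∈ Y → x * y = y * x := fun {x y} hx hy =>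
        congrArg Subtype.val (mul_comm' (⟨x, hx⟩ : Y) ⟨y, hy⟩)
      have key : ∀ y ∈ Y, g' * t₀ * g'⁻¹ * y * (g' * t₀ * g'⁻¹)⁻¹ = t₀ * y * t₀⁻¹ := by
        intro y hy
        obtain ⟨f, hf⟩ : ∃ f, f = y⁻¹ * (δ * y * δ⁻¹) := ⟨_, rfl⟩
        have hfV : f ∈ V := hf ▸ hδSer y hy
        have hδy : δ * y * δ⁻¹ = y * f := by rw [hf]; group
        have hn : ∀ n : ℕ, δ ^ n * y * (δ ^ n)⁻¹ = y * f ^ n := by
          intro n
          induction n with
          | zero => simp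
          | succ n ih =>
            calc δ ^ (n + 1) * y * (δ ^ (n + 1))⁻¹
                = δ * (δ ^ n * y * (δ ^ n)⁻¹) * δ⁻¹ := by rw [pow_succ']; group
              _ = (δ * y * δ⁻¹) * (δ * f ^ n * δ⁻¹) := by rw [ih]; group
              _ = y * f ^ (n + 1) := by
                rw [hfix _ (pow_mem hfV n), pow_succ', hδy, mul_assoc]
        obtain ⟨w, hw⟩ : ∃ w, w = y⁻¹ * (t₀ * y * t₀⁻¹) := ⟨_, rfl⟩
        have hwV : w ∈ V := hw ▸ ht₀Ser y hy
        have hty : t₀ * y * t₀⁻¹ = y * w := by rw [hw]; group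
        have hkV : ∀ v ∈ V, k * v * k⁻¹ = v := fun v hv => by
          rw [hk, ← Subgroup.mem_centralizer_iff.1 (pow_mem hδC m) v hv]; group
        have hky : k * y * k⁻¹ = y * f ^ m := hk ▸ hn m
        have hkz : ∀ z ∈ V, k⁻¹ * (y * z) * k = y * (f ^ m)⁻¹ * z := by
          intro z hz
          have h1 : k * (y * (f ^ m)⁻¹ * z) * k⁻¹ = y * z := by
            calc k * (y * (f ^ m)⁻¹ * z) * k⁻¹
                = (k * y * k⁻¹) * (k * (f ^ m)⁻¹ * k⁻¹) * (k * z * k⁻¹) := by group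
              _ = y * z := by rw [hky, hkV _ (V.inv_mem (pow_mem hfV m)), hkV z hz]; group
          rw [← h1]; group
        have hfm : f ^ m * f ^ m = f := by
          rw [← pow_add, ← hm, pow_succ, hV1 f hfV, one_mul]
        have hg't : g' * t₀ * g'⁻¹ = k⁻¹ * δ * t₀ * k := by rw [hg', hδ]; group
        have hfw : f * w * (f ^ m)⁻¹ = w * (f * (f ^ m)⁻¹) := by
          rw [hcY (C.V_le hfV) (C.V_le hwV)]; group
        have hfw' : (f ^ m)⁻¹ * w = w * (f ^ m)⁻¹ :=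
          hcY (Y.inv_mem (pow_mem (C.V_le hfV) m)) (C.V_le hwV)
        calc g' * t₀ * g'⁻¹ * y * (g' * t₀ * g'⁻¹)⁻¹
            = k⁻¹ * (δ * (t₀ * (k * y * k⁻¹) * t₀⁻¹) * δ⁻¹) * k := by rw [hg't]; group
          _ = k⁻¹ * (δ * ((t₀ * y * t₀⁻¹) * (t₀ * f ^ m * t₀⁻¹)) * δ⁻¹) * k := by
              rw [hky]; group
          _ = k⁻¹ * (δ * (y * w * (f ^ m)⁻¹) * δ⁻¹) * k := by
              rw [ht₀V _ (pow_mem hfV m), hty]
          _ = k⁻¹ * ((δ * y * δ⁻¹) * (δ * (w * (f ^ m)⁻¹) * δ⁻¹)) * k := by group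
          _ = k⁻¹ * (y * (f * w * (f ^ m)⁻¹)) * k := by
              rw [hfix _ (V.mul_mem hwV (V.inv_mem (pow_mem hfV m))), hδy]; group
          _ = y * (f ^ m)⁻¹ * (w * (f * (f ^ m)⁻¹)) := by
              rw [hfw, hkz _ (V.mul_mem hwV (V.mul_mem hfV (V.inv_mem (pow_mem hfV m))))]
          _ = y * ((f ^ m)⁻¹ * w) * (f * (f ^ m)⁻¹) := by group
          _ = y * (w * (f ^ m)⁻¹) * ((f ^ m * f ^ m) * (f ^ m)⁻¹) := by rw [hfw', hfm]
          _ = t₀ * y * t₀⁻¹ := by rw [hty]; group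
      have hg'X : g' ∈ Subgroup.centralizer (X : Set Γ) := by
        refine Subgroup.mem_centralizer_iff.2 fun x hx => ?_
        have hxY := C.X_le hx
        have h1 := key _ (C.normal_Y.conj_mem x hxY g')
        rw [show g' * t₀ * g'⁻¹ * (g' * x * g'⁻¹) * (g' * t₀ * g'⁻¹)⁻¹ =
          g' * (t₀ * x * t₀⁻¹) * g'⁻¹ by group, ht₀X x hx] at h1
        obtain ⟨z, hz⟩ : ∃ z, z = x⁻¹ * (g' * x * g'⁻¹) := ⟨_, rfl⟩
        have hzV : z ∈ V := hz ▸ hg'Ser x hxY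
        have h3 : z⁻¹ = z := by
          rw [← ht₀V z hzV, hz, show t₀ * (x⁻¹ * (g' * x * g'⁻¹)) * t₀⁻¹ =
            (t₀ * x * t₀⁻¹)⁻¹ * (t₀ * (g' * x * g'⁻¹) * t₀⁻¹) by group, ht₀X x hx, ← h1]
        have h4 : z ^ 2 = 1 := by
          rw [pow_two]
          nth_rw 1 [← h3]
          exact inv_mul_cancel z
        have h5 : z = 1 := orderOf_eq_one_iff.1 (Nat.eq_one_of_dvd_coprimes
          ((Nat.coprime_primes Nat.prime_two Fact.out).2 (Ne.symm hp))
          (orderOf_dvd_of_pow_eq_one h4) (orderOf_dvd_of_pow_eq_one (hV1 z hzV)))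
        rw [h5, eq_comm, inv_mul_eq_one] at hz
        exact (mul_inv_eq_iff_eq_mul.1 hz.symm).symm
      have h := mul_mem hkM (hXle (Subgroup.centralizer_le_normalizer _ hg'X))
      rwa [hg', mul_inv_cancel_left] at h
    refine C.proper (top_le_iff.1 ?_)
    obtain ⟨T, hDT, -, hT, hTi⟩ := exists_sylow_ge (H := (⊤ : Subgroup Γ))
      (C.isPGroup_D.to_sup_of_normal_left C.isPGroup_a) le_top
    exact (le_pPrimeElts_sup le_top hTi).trans (sup_le
      ((Subgroup.closure_le _).2 fun g hg => hall g hg.2)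
      (Subgroup.le_normalizer.trans (C.normalizer_le T hT (le_sup_left.trans hDT)
        (hDT (Subgroup.mem_sup_right (Subgroup.mem_zpowers a))))))
  -- the torus element and its eigenvectors
  obtain ⟨e, he⟩ := IsCyclic.exists_generator (α := (ZMod p)ˣ)
  obtain ⟨t, ht, -⟩ := hlift e
  have htM : t ∈ M₀ := hdiag t e ht
  obtain ⟨e', he'⟩ : ∃ e', e' = e⁻¹ := ⟨_, rfl⟩
  have hΘe : Θ (torusS e) = ι (e : ZMod p) * (α * γ) + ι (e' : ZMod p) * (γ * α) := by
    show unitsMap ι α γ _ = _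
    rw [torusS_coe, ← he']
    simp [unitsMap]
  obtain ⟨x₀, hx₀, hαx₀⟩ : ∃ x, x ≠ 0 ∧ α x = 0 := by
    by_contra hne
    push Not at hne
    refine hα0 (AddMonoidHom.ext fun x => ?_)
    by_contra hx
    exact hne _ hx (congrArg (fun f : AddMonoid.End (Additive V) => f x) hαα)
  obtain ⟨y₀, hy₀⟩ : ∃ y, y = γ x₀ := ⟨_, rfl⟩
  have hαy : α y₀ = x₀ := by
    have := congrArg (fun f : AddMonoid.End (Additive V) => f x₀) hαγ
    change α (γ x₀) + γ (α x₀) = x₀ at this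
    rwa [hαx₀, map_zero, add_zero, ← hy₀] at this
  have hγy : γ y₀ = 0 := hy₀ ▸ congrArg (fun f : AddMonoid.End (Additive V) => f x₀) hγ
  have hρt : ∀ x, ρ t x = (e : ZMod p).val • α (γ x) + (e' : ZMod p).val • γ (α x) := by
    intro x
    rw [ht, hΘe]
    show ι (e : ZMod p) (α (γ x)) + ι (e' : ZMod p) (γ (α x)) = _
    rw [hι, hι]
  have hρa : ∀ x, ρ a x = x + α x := fun x => by
    rw [hα]
    show _ = x + (ρ a x - x)
    abel
  refine ⟨t, e, htM, he, ⟨_, x₀.toMul.2, _, y₀.toMul.2, fun h => hx₀ (hext h),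
    hV1 _ x₀.toMul.2, hV1 _ y₀.toMul.2, ?_, ?_, ?_, ?_⟩, ?_⟩
  · rw [← hρ a x₀, hρa, hαx₀, add_zero]
  · rw [← hρ a y₀, hρa, hαy, add_comm, toMul_add, Subgroup.coe_mul]
  · rw [← hρ t x₀, hρt, hαx₀, map_zero, smul_zero, add_zero, ← hy₀, hαy, toMul_nsmul,
      SubmonoidClass.coe_pow]
  · rw [← hρ t y₀, hρt, hγy, map_zero, smul_zero, zero_add, hαy, ← hy₀, toMul_nsmul,
      SubmonoidClass.coe_pow, he']
  obtain ⟨x, ⟨hxX, hxV⟩, hx1⟩ := (Subgroup.bot_or_exists_ne_one (X ⊓ V)).resolve_left hXV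
  obtain ⟨z, hz⟩ : ∃ z, z = t * x * t⁻¹ * (x ^ (e' : ZMod p).val)⁻¹ := ⟨_, rfl⟩
  by_cases hz1 : z = 1
  · exact ⟨x, e', hxX, hxV, hx1, Or.inr he', mul_inv_eq_one.1 (hz ▸ hz1)⟩
  have hzV : z ∈ V := hz ▸ V.mul_mem (C.normal_V.conj_mem x hxV t) (V.inv_mem (pow_mem hxV _))
  refine ⟨z, e, hz ▸ X.mul_mem (conj_mem_of_normalizer (C.normalizer_X htM) hxX)
    (X.inv_mem (pow_mem hxX _)), hzV, hz1, Or.inl rfl, ?_⟩
  obtain ⟨ξ, hξ⟩ : ∃ ξ : Additive V, ξ = Additive.ofMul ⟨x, hxV⟩ := ⟨_, rfl⟩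
  have hzeq : ((((ρ t - ι (e' : ZMod p)) ξ).toMul : V) : Γ) = z := by
    show ((((ρ t ξ) - ι (e' : ZMod p) ξ).toMul : V) : Γ) = z
    rw [toMul_sub, div_eq_mul_inv, Subgroup.coe_mul, Subgroup.coe_inv, hρ, hι, toMul_nsmul,
      SubmonoidClass.coe_pow, hξ, hz]
    rfl
  have hprod : (ρ t - ι (e : ZMod p)) * (ρ t - ι (e' : ZMod p)) = 0 := by
    have hsub : ∀ k : ZMod p, ρ t - ι k = unitsMap ι α γ
        ((torusS e : Matrix (Fin 2) (Fin 2) (ZMod p)) - k • 1) := by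
      intro k
      rw [ht]
      show unitsMap ι α γ _ - ι k = _
      rw [← hscal k]
      simp [unitsMap, sub_mul]
      abel
    rw [hsub, hsub, ← unitsMap_mul ι hαα hγ hαγ (fun k => hcomm k α) (fun k => hcomm k γ)]
    rw [torusS_coe, ← he']
    simp [unitsMap, Matrix.mul_apply, Fin.sum_univ_two]
  have h0 : (ρ t - ι (e : ZMod p)) ((ρ t - ι (e' : ZMod p)) ξ) = 0 :=
    congrArg (fun f : AddMonoid.End (Additive V) => f ξ) hprod
  obtain ⟨η, hη⟩ : ∃ η, η = (ρ t - ι (e' : ZMod p)) ξ := ⟨_, rfl⟩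
  rw [← hη] at h0 hzeq
  have h1 : ρ t η = (e : ZMod p).val • η := by
    rw [← hι]
    exact sub_eq_zero.1 h0
  rw [← hzeq, ← hρ t η, h1, toMul_nsmul, SubmonoidClass.coe_pow]

end CfsgLib.ZJFailure
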