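import Cfsg.Agent.Lib.ZJFailure.QuadDatum
import Cfsg.Agent.Lib.ZJFailure.PairStage
import Cfsg.Agent.Lib.ZJFailure.Torus

/-!
The chief section `Z₁/Z₀` of the pair group on which the two quadratic elements generate a natural
`SL₂(p)`, with a torus element acting like an element of `N(Z(J(S)))`.
-/

set_option autoImplicit false
set_option linter.style.haveILetI false

open scoped commutatorElement IsMulCommutative

namespace CfsgLib.ZJFailure

open Cfsg CfsgLib.ConjFunctor CfsgLib.NormalPComplement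

variable {G : Type*} [Group G] [Finite G] {p : ℕ} [Fact p.Prime]

omit [Finite G] in
theorem conj_pow_eigen {t v : G} (hv : v ^ p = 1) {e : ZMod p} (h : t * v * t⁻¹ = v ^ e.val)
    (n : ℕ) : t ^ n * v * (t ^ n)⁻¹ = v ^ (e ^ n).val := by
  induction n with
  | zero => simp [ZMod.val_one]
  | succ n ih =>
    calc t ^ (n + 1) * v * (t ^ (n + 1))⁻¹ = t * (t ^ n * v * (t ^ n)⁻¹) * t⁻¹ := by
          rw [pow_succ']; group
      _ = (v ^ e.val) ^ (e ^ n).val := by rw [ih, ← conj_pow, h]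
      _ = v ^ (e ^ (n + 1)).val := by
        rw [← pow_mul, pow_succ', ZMod.val_mul]
        exact pow_eq_pow_mod _ hv

/-- The data extracted from the section. -/
structure IsSectionData (S : Sylow p G) (Q M₀ Z₀ Z₁ : Subgroup G) (c t v u x : G) (e f : (ZMod p)ˣ) :
    Prop where
  Z₀_le : Z₀ ≤ Z₁
  Z₁_le : Z₁ ≤ Q
  Z₁_norm : Z₁ ≤ Subgroup.normalizer (Z₀ : Set G)
  c_norm : c ∈ Subgroup.normalizer (Z₀ : Set G)
  c_mem : c ∈ (S : Subgroup G)
  t_norm : t ∈ Subgroup.normalizer (Z₀ : Set G)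
  t_norm' : t ∈ Subgroup.normalizer (Z₁ : Set G)
  t_mem : t ∈ M₀
  t_coprime : (orderOf t).Coprime p
  e_gen : ∀ z : (ZMod p)ˣ, z ∈ Subgroup.zpowers e
  f_gen : ∀ z : (ZMod p)ˣ, z ∈ Subgroup.zpowers f
  v_mem : v ∈ Z₁
  u_mem : u ∈ Z₁
  v_not : v ∉ Z₀
  v_pow : v ^ p ∈ Z₀
  u_pow : u ^ p ∈ Z₀
  comm : (v * u)⁻¹ * (u * v) ∈ Z₀
  c_v : v⁻¹ * (c * v * c⁻¹) ∈ Z₀
  c_u : (v * u)⁻¹ * (c * u * c⁻¹) ∈ Z₀
  t_v : (v ^ (e : ZMod p).val)⁻¹ * (t * v * t⁻¹) ∈ Z₀
  t_u : (u ^ ((e⁻¹ : (ZMod p)ˣ) : ZMod p).val)⁻¹ * (t * u * t⁻¹) ∈ Z₀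
  x_mem : x ∈ centerThompsonAOf (S : Subgroup G)
  x_mem' : x ∈ Z₁
  x_not : x ∉ Z₀
  x_pow : x ^ p ∈ Z₀
  t_x : (x ^ (f : ZMod p).val)⁻¹ * (t * x * t⁻¹) ∈ Z₀

variable {S : Sylow p G} {M Q B E : Subgroup G} {a : G}

theorem exists_sectionData (hp : p ≠ 2)
    (F : IsLocalFailure S (Subgroup.normalizer (centerThompsonAOf (S : Subgroup G) : Set G)) M Q)
    (dt : IsQuadDatum S M Q B E a) :
    ∃ Z₀ Z₁ c t v u x e f, IsSectionData S Q (rlSubgroup
      (Subgroup.normalizer (centerThompsonAOf (S : Subgroup G) : Set G)) M Q F.le_normalizer)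
      Z₀ Z₁ c t v u x e f := by
  classical
  obtain ⟨K, D, c, b, P⟩ := exists_isPair F (sylow_le_normalizer_zj S) dt.mem dt.not_mem
    dt.le_normalizer dt.le_normalizer_E dt.quadratic
  obtain ⟨W, hW⟩ : ∃ W, W = centerThompsonAOf (S : Subgroup G) := ⟨_, rfl⟩
  obtain ⟨M₀, hM₀⟩ : ∃ M₀, M₀ = rlSubgroup
    (Subgroup.normalizer (centerThompsonAOf (S : Subgroup G) : Set G)) M Q F.le_normalizer := ⟨_, rfl⟩
  rw [← hM₀] at P ⊢
  obtain ⟨X, hX⟩ : ∃ X, X = B ⊓ W := ⟨_, rfl⟩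
  have hBK : B ≤ K := dt.le_Q.trans (P.Q_le.trans P.D_le)
  have hKB : K ≤ Subgroup.normalizer (B : Set G) := P.le_M.trans dt.le_normalizer
  have hKE : K ≤ Subgroup.normalizer (E : Set G) := P.le_M.trans dt.le_normalizer_E
  have hEX : E ≤ X := hX ▸ hW ▸ dt.E_le
  have hXB : X ≤ B := hX ▸ inf_le_left
  have hDc : IsPGroup p ↥(D ⊔ Subgroup.zpowers c) := P.isPGroup.to_sup_of_normal_left'
    (S.2.to_le (Subgroup.zpowers_le.2 P.mem_S)) (Subgroup.zpowers_le.2 (P.le_normalizer P.mem_K))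
  have hDcK : D ⊔ Subgroup.zpowers c ≤ K := sup_le P.D_le (Subgroup.zpowers_le.2 P.mem_K)
  have hsylow : ∀ T : Subgroup G, T ≤ M → IsPGroup p T → D ≤ T → c ∈ T → T ≤ M₀ :=
    fun T h1 h2 h3 h4 q hq => P.mem_of_normalizer T h1 h2 h3 h4 q (h1 hq)
      (Subgroup.le_normalizer hq)
  have hDM₀ : D ≤ M₀ := le_sup_left.trans (hsylow _ (hDcK.trans P.le_M) hDc le_sup_left
    (Subgroup.mem_sup_right (Subgroup.mem_zpowers c)))
  have hcM₀ : c ∈ M₀ := hsylow _ (hDcK.trans P.le_M) hDc le_sup_left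
    (Subgroup.mem_sup_right (Subgroup.mem_zpowers c))
    (Subgroup.mem_sup_right (Subgroup.mem_zpowers c))
  have hM₀M : M₀ ≤ M := hM₀ ▸ fun m hm => hm.1
  have hM₀X : M₀ ≤ Subgroup.normalizer (X : Set G) := by
    intro m hm
    refine mem_normalizer_of_conj_le fun x hx => ?_
    rw [hX] at hx ⊢
    refine ⟨conj_mem_of_normalizer (dt.le_normalizer (hM₀M hm)) hx.1, ?_⟩
    rw [hM₀] at hm
    obtain ⟨h, hh, hh'⟩ := hm.2
    rw [← hh' x (dt.le_Q hx.1)]
    exact conj_mem_of_normalizer (hW ▸ hh) hx.2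
  obtain ⟨Y, hY⟩ : ∃ Y, Y = E ⊔ Subgroup.closure {z | ∃ k ∈ K, ∃ x ∈ X, z = k * x * k⁻¹} := ⟨_, rfl⟩
  have hYB : Y ≤ B := by
    rw [hY]
    refine sup_le (hEX.trans hXB) ((Subgroup.closure_le _).2 ?_)
    rintro _ ⟨k, hk, x, hx, rfl⟩
    exact conj_mem_of_normalizer (hKB hk) (hXB hx)
  have hKY : K ≤ Subgroup.normalizer (Y : Set G) := by
    intro k hk
    refine mem_normalizer_of_conj_le fun y hy => ?_
    suffices h : Y ≤ Y.comap (MulAut.conj k).toMonoidHom from h hy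
    nth_rw 1 [hY]
    refine sup_le (fun z hz => hY ▸ Subgroup.mem_sup_left (conj_mem_of_normalizer (hKE hk) hz))
      ((Subgroup.closure_le _).2 ?_)
    rintro _ ⟨l, hl, x, hx, rfl⟩
    show k * (l * x * l⁻¹) * k⁻¹ ∈ Y
    rw [hY]
    exact Subgroup.mem_sup_right
      (Subgroup.subset_closure ⟨k * l, mul_mem hk hl, x, hx, by group⟩)
  have hXY : X ≤ Y := fun x hx => hY ▸ Subgroup.mem_sup_right
    (Subgroup.subset_closure ⟨1, one_mem _, x, hx, by group⟩)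
  have hEY : E ≤ Y := hY ▸ le_sup_left
  obtain ⟨Z₁, hZ₁⟩ : ∃ Z₁, Z₁ = E ⊔ Subgroup.closure
    {z | ∃ y ∈ Y, ∃ o ∈ K, (orderOf o).Coprime p ∧ z = y⁻¹ * (o * y * o⁻¹)} := ⟨_, rfl⟩
  have hZ₁Y : Z₁ ≤ Y := by
    rw [hZ₁]
    refine sup_le hEY ((Subgroup.closure_le _).2 ?_)
    rintro _ ⟨y, hy, o, ho, -, rfl⟩
    exact mul_mem (inv_mem hy) (conj_mem_of_normalizer (hKY ho) hy)
  have hKZ₁ : K ≤ Subgroup.normalizer (Z₁ : Set G) := by
    intro k hk
    refine mem_normalizer_of_conj_le fun z hz => ?_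
    suffices h : Z₁ ≤ Z₁.comap (MulAut.conj k).toMonoidHom from h hz
    nth_rw 1 [hZ₁]
    refine sup_le (fun z hz => hZ₁ ▸ Subgroup.mem_sup_left (conj_mem_of_normalizer (hKE hk) hz))
      ((Subgroup.closure_le _).2 ?_)
    rintro _ ⟨y, hy, o, ho, hop, rfl⟩
    show k * (y⁻¹ * (o * y * o⁻¹)) * k⁻¹ ∈ Z₁
    rw [hZ₁]
    refine Subgroup.mem_sup_right (Subgroup.subset_closure ⟨k * y * k⁻¹,
      conj_mem_of_normalizer (hKY hk) hy, k * o * k⁻¹, mul_mem (mul_mem hk ho) (inv_mem hk), ?_,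
      by group⟩)
    rwa [show orderOf (k * o * k⁻¹) = orderOf o from (MulAut.conj k).orderOf_eq o]
  have hE₁ : E < Z₁ := by
    refine lt_of_le_not_ge (hZ₁ ▸ le_sup_left) fun hle => P.not_le ?_
    obtain ⟨L, hL⟩ : ∃ L, L = M ⊓ Subgroup.normalizer (X : Set G) := ⟨_, rfl⟩
    have hR : (S : Subgroup G) ⊓ Subgroup.normalizer (Q : Set G) ≤ L := by
      intro r hr
      rw [hL]
      refine ⟨F.inf_le hr, mem_normalizer_of_conj_le fun x hx => ?_⟩
      rw [hX] at hx ⊢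
      exact ⟨conj_mem_of_normalizer (dt.le_normalizer (F.inf_le hr)) hx.1,
        conj_mem_of_normalizer (hW ▸ sylow_le_normalizer_zj S hr.1) hx.2⟩
    have hLne : L ≠ M := fun h => dt.not_normal (by
      rw [← hW, ← hX]
      exact inf_eq_left.1 (hL.symm.trans h))
    obtain ⟨T, hDT, hTK, hT, hTi⟩ := exists_sylow_ge hDc hDcK
    refine (le_pPrimeElts_sup hTK hTi).trans (sup_le ((Subgroup.closure_le _).2 ?_)
      (hsylow T (hTK.trans P.le_M) hT (le_sup_left.trans hDT)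
        (hDT (Subgroup.mem_sup_right (Subgroup.mem_zpowers c)))))
    rintro o ⟨ho, hop⟩
    rw [hM₀]
    refine ⟨P.le_M ho, F.minimal L hR (hL ▸ inf_le_left) hLne o (hL ▸ ⟨P.le_M ho, ?_⟩)⟩
    refine mem_normalizer_of_conj_le fun x hx => ?_
    have h1 : x⁻¹ * (o * x * o⁻¹) ∈ X := hEX (hle (hZ₁ ▸ Subgroup.mem_sup_right
      (Subgroup.subset_closure ⟨x, hXY hx, o, ho, hop, rfl⟩)))
    simpa using X.mul_mem hx h1
  obtain ⟨Z₀, hmax⟩ : ∃ Z₀, Maximal (fun U : Subgroup G => E ≤ U ∧ U < Z₁ ∧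
      K ≤ Subgroup.normalizer (U : Set G)) Z₀ :=
    Set.Finite.exists_maximal (Set.toFinite _) ⟨E, le_rfl, hE₁, hKE⟩
  obtain ⟨hEZ, hZlt, hKZ⟩ := hmax.prop
  have hZK : Z₀ ≤ K := hZlt.le.trans (hZ₁Y.trans (hYB.trans hBK))
  have hZ₀D : Z₀ ≤ D := hZlt.le.trans (hZ₁Y.trans (hYB.trans (dt.le_Q.trans P.Q_le)))
  haveI : (Z₀.subgroupOf K).Normal := Subgroup.normal_subgroupOf_of_le_normalizer hKZ
  let π : K →* K ⧸ Z₀.subgroupOf K := QuotientGroup.mk' _
  have hπs : Function.Surjective π := QuotientGroup.mk'_surjective _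
  let im : Subgroup G → Subgroup (K ⧸ Z₀.subgroupOf K) := fun U => (U.subgroupOf K).map π
  have hmemim : ∀ {U : Subgroup G}, Z₀ ≤ U → ∀ k : K, π k ∈ im U ↔ (k : G) ∈ U := by
    intro U hU k
    refine ⟨?_, fun h => ⟨k, h, rfl⟩⟩
    rintro ⟨l, hl, hlk⟩
    have h1 := Subgroup.mem_subgroupOf.1 (QuotientGroup.eq.1 hlk)
    simpa using U.mul_mem (Subgroup.mem_subgroupOf.1 hl) (hU h1)
  have hnormim : ∀ {U : Subgroup G}, K ≤ Subgroup.normalizer (U : Set G) → (im U).Normal :=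
    fun {U} h => (Subgroup.normal_subgroupOf_of_le_normalizer h).map π hπs
  have hone : ∀ {k : K}, (k : G) ∈ Z₀ → π k = 1 := fun h => (QuotientGroup.eq_one_iff _).2 h
  -- preimages in `G`
  let pre : Subgroup (K ⧸ Z₀.subgroupOf K) → Subgroup G := fun U => (U.comap π).map K.subtype
  have hpre : ∀ U (k : K), (k : G) ∈ pre U ↔ π k ∈ U := by
    intro U k
    refine ⟨?_, fun h => ⟨k, h, rfl⟩⟩
    rintro ⟨l, hl, hlk⟩
    rwa [← show l = k from Subtype.ext hlk]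
  have hpreK : ∀ U, pre U ≤ K := fun U => Subgroup.map_subtype_le _
  have hpreZ : ∀ U, Z₀ ≤ pre U := fun U z hz =>
    (hpre U ⟨z, hZK hz⟩).2 (by rw [hone (k := ⟨z, hZK hz⟩) hz]; exact one_mem _)
  have hpren : ∀ U : Subgroup (K ⧸ Z₀.subgroupOf K), U.Normal →
      K ≤ Subgroup.normalizer (pre U : Set G) := by
    intro U hU k hk
    refine mem_normalizer_of_conj_le fun z hz => ?_
    refine (hpre U (⟨k, hk⟩ * ⟨z, hpreK U hz⟩ * ⟨k, hk⟩⁻¹)).2 ?_
    rw [map_mul, map_mul, map_inv]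
    exact hU.conj_mem _ ((hpre U ⟨z, hpreK U hz⟩).1 hz) _
  have hEzero : ∀ {k : K}, (k : G) ∈ E → π k = 1 := fun h => hone (hEZ h)
  have hlift : ∀ o : K ⧸ Z₀.subgroupOf K, (orderOf o).Coprime p →
      ∃ k : K, π k = o ∧ (orderOf (k : G)).Coprime p := by
    intro o ho
    obtain ⟨k, rfl⟩ := hπs o
    obtain ⟨n, hn⟩ := exists_pow_coprime_orderOf (p := p) (isOfFinOrder_of_finite (k : G))
    obtain ⟨i, hi⟩ := exists_pow_eq_self_of_coprime (ho.symm.pow_left n)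
    refine ⟨(k ^ p ^ n) ^ i, by rw [map_pow, map_pow, hi], ?_⟩
    exact (hn.coprime_dvd_left (by simpa using orderOf_pow_dvd (x := (k : G) ^ p ^ n) i))
  let cK : K := ⟨c, P.mem_K⟩
  obtain ⟨k₀, hk₀, hb⟩ := P.isConj
  let bK : K := ⟨b, hb ▸ mul_mem (mul_mem hk₀ P.mem_K) (inv_mem hk₀)⟩
  have hquad : ∀ (g : K), (∀ y ∈ B, ⁅⁅y, (g : G)⁆, (g : G)⁆ ∈ E) → ∀ w ∈ im Z₁,
      ⁅⁅w, π g⁆, π g⁆ = 1 := by
    rintro g hg _ ⟨w, hw, rfl⟩
    rw [← map_commutatorElement, ← map_commutatorElement]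
    exact hEzero (hg _ (hYB (hZ₁Y hw)))
  have hconf : IsTorusConfig p (im Y) (im Z₁) (im X) (im D) (im M₀) (π cK) (π bK) := by
    have hqb : ∀ y ∈ B, ⁅⁅y, b⁆, b⁆ ∈ E := by
      intro y hy
      have hy' : k₀⁻¹ * y * k₀ ∈ B := (Subgroup.mem_normalizer_iff''.1 (hKB hk₀) y).1 hy
      have h := conj_mem_of_normalizer (hKE hk₀) (P.quadratic _ hy')
      rwa [show k₀ * ⁅⁅k₀⁻¹ * y * k₀, c⁆, c⁆ * k₀⁻¹ = ⁅⁅y, b⁆, b⁆ by
        rw [hb]; simp only [commutatorElement_def]; group] at h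
    refine
      { normal_Y := hnormim hKY
        comm_Y := ?_
        isPGroup_Y := ?_
        normal_V := hnormim hKZ₁
        V_le := Subgroup.map_mono fun k hk => hZ₁Y hk
        V_ne := ?_
        irr := ?_
        series := ?_
        nontrivial := ?_
        normal_D := hnormim P.le_normalizer
        isPGroup_D := ?_
        gen := ?_
        isConj := ⟨π ⟨k₀, hk₀⟩, by
          rw [← map_inv, ← map_mul, ← map_mul]; exact congrArg π (Subtype.ext hb)⟩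
        quadratic_a := hquad cK P.quadratic
        quadratic_b := hquad bK hqb
        isPGroup_a := ?_
        D_le := Subgroup.map_mono fun k hk => hDM₀ hk
        mem_a := ⟨cK, hcM₀, rfl⟩
        proper := ?_
        minimal := ?_
        normalizer_le := ?_
        X_le := Subgroup.map_mono fun k hk => hXY hk
        normalizer_X := ?_
        X_gen := ?_ }
    · refine isMulCommutative_iff_le_centralizer.2 ?_
      rintro _ ⟨y, hy, rfl⟩
      refine Subgroup.mem_centralizer_iff.2 ?_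
      rintro _ ⟨z, hz, rfl⟩
      rw [← commutatorElement_eq_one_iff_mul_comm, ← map_commutatorElement]
      exact hEzero (dt.commutator_mem _ (hYB hz) _ (dt.le_Q (hYB hy)))
    · exact (((S.2.to_le F.le_sylow).to_le (hYB.trans dt.le_Q)).comap_subtype).map π
    · intro h
      refine hZlt.not_ge fun z hz => ?_
      have hzK : z ∈ K := hBK (hYB (hZ₁Y hz))
      have h1 : π ⟨z, hzK⟩ ∈ (⊥ : Subgroup _) := h ▸ ⟨⟨z, hzK⟩, hz, rfl⟩
      exact Subgroup.mem_subgroupOf.1 ((QuotientGroup.eq_one_iff _).1 (Subgroup.mem_bot.1 h1))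
    · intro U hU hUle
      have h1 : pre U ≤ Z₁ := fun z hz =>
        (hmemim hZlt.le ⟨z, hpreK U hz⟩).1 (hUle ((hpre U ⟨z, hpreK U hz⟩).1 hz))
      rcases eq_or_lt_of_le h1 with h2 | h2
      · refine Or.inr (le_antisymm hUle ?_)
        rintro _ ⟨k, hk, rfl⟩
        exact (hpre U k).1 (h2.symm ▸ hk)
      · refine Or.inl (eq_bot_iff.2 fun w hw => ?_)
        obtain ⟨k, rfl⟩ := hπs w
        rw [Subgroup.mem_bot]
        exact hone (hmax.2 ⟨hEZ.trans (hpreZ U), h2, hpren U hU⟩ (hpreZ U) ((hpre U k).2 hw))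
    · rintro o ho _ ⟨y, hy, rfl⟩
      obtain ⟨k, rfl, hk⟩ := hlift o ho
      rw [← map_inv, ← map_inv, ← map_mul, ← map_mul, ← map_mul]
      exact ⟨_, hZ₁ ▸ Subgroup.mem_sup_right (Subgroup.subset_closure
        ⟨(y : G), hy, (k : G), k.2, hk, rfl⟩), rfl⟩
    · by_contra hnone
      push Not at hnone
      refine hZlt.not_ge ?_
      nth_rw 1 [hZ₁]
      refine sup_le hEZ ((Subgroup.closure_le _).2 ?_)
      rintro _ ⟨y, hy, o, ho, hop, rfl⟩
      have hop' : (orderOf (π ⟨o, ho⟩)).Coprime p := hop.coprime_dvd_left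
        (by simpa using orderOf_map_dvd π (⟨o, ho⟩ : K))
      have h1 : π ⟨o, ho⟩ ∈ Subgroup.centralizer ((im Y : Subgroup _) : Set _) := by
        refine CoprimeAction.le_centralizer_of_series (A := Subgroup.zpowers (π ⟨o, ho⟩))
          (N := im Z₁) (Subgroup.map_mono fun k hk => hZ₁Y hk) ?_ ?_ ?_ (Subgroup.mem_zpowers _)
        · have hp' : IsPGroup p (im Z₁) := ((((S.2.to_le F.le_sylow).to_le
            (hZ₁Y.trans (hYB.trans dt.le_Q))).comap_subtype).map π)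
          obtain ⟨n, hn⟩ := IsPGroup.iff_card.1 hp'
          rw [Nat.card_zpowers, hn]
          exact hop'.pow_right n
        · exact Subgroup.zpowers_le.2 (hnone _ hop')
        · rintro w ⟨i, rfl⟩ _ ⟨z, hz, rfl⟩
          show (π z)⁻¹ * (π ⟨o, ho⟩ ^ i * π z * (π ⟨o, ho⟩ ^ i)⁻¹) ∈ im Z₁
          rw [← map_zpow, ← map_inv, ← map_inv, ← map_mul, ← map_mul, ← map_mul]
          refine ⟨_, hZ₁ ▸ Subgroup.mem_sup_right (Subgroup.subset_closure
            ⟨(z : G), hz, o ^ i, zpow_mem ho i, hop.coprime_dvd_left ?_, rfl⟩), rfl⟩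
          exact orderOf_dvd_of_mem_zpowers (zpow_mem (Subgroup.mem_zpowers o) i)
      have hyK : y ∈ K := hBK (hYB hy)
      have h2 := Subgroup.mem_centralizer_iff.1 h1 (π ⟨y, hyK⟩) ⟨⟨y, hyK⟩, hy, rfl⟩
      have h3 : π ((⟨y, hyK⟩ : K)⁻¹ * ((⟨o, ho⟩ : K) * ⟨y, hyK⟩ * (⟨o, ho⟩ : K)⁻¹)) = 1 := by
        rw [map_mul, map_mul, map_mul, map_inv, map_inv, ← h2]
        group
      exact Subgroup.mem_subgroupOf.1 ((QuotientGroup.eq_one_iff _).1 h3)
    · exact (P.isPGroup.comap_subtype).map π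
    · rw [eq_top_iff]
      intro w _
      obtain ⟨k, rfl⟩ := hπs w
      obtain ⟨L, hL⟩ : ∃ L, L = im D ⊔ Subgroup.closure {π cK, π bK} := ⟨_, rfl⟩
      rw [← hL, ← hpre L k]
      refine (P.le_sup.trans (sup_le (fun z hz => ?_) ((Subgroup.closure_le _).2 ?_))) k.2
      · refine (hpre L ⟨z, P.D_le hz⟩).2 ?_
        rw [hL]
        exact Subgroup.mem_sup_left ⟨⟨z, P.D_le hz⟩, hz, rfl⟩
      · rintro z (rfl | rfl)
        · refine (hpre L cK).2 ?_
          rw [hL]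
          exact Subgroup.mem_sup_right (Subgroup.subset_closure (by simp))
        · refine (hpre L bK).2 ?_
          rw [hL]
          exact Subgroup.mem_sup_right (Subgroup.subset_closure (by simp))
    · have hcp : IsPGroup p ↥(Subgroup.zpowers cK) := by
        refine IsPGroup.to_le ((S.2.comap_subtype : IsPGroup p ((S : Subgroup G).subgroupOf K))) ?_
        exact Subgroup.zpowers_le.2 P.mem_S
      rw [← MonoidHom.map_zpowers]
      exact hcp.map π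
    · intro htop
      refine P.not_le fun k hk => ?_
      exact (hmemim (hZ₀D.trans hDM₀) ⟨k, hk⟩).1 (by rw [htop]; exact Subgroup.mem_top _)
    · intro L hDL hcL hLtop
      have hpre₀ : pre L ≤ M₀ := by
        refine P.minimal (pre L) (hpreK L) (fun z hz => (hpre L ⟨z, P.D_le hz⟩).2
          (hDL ⟨⟨z, P.D_le hz⟩, hz, rfl⟩)) ((hpre L cK).2 hcL) fun h => hLtop (eq_top_iff.2 ?_)
        intro w _
        obtain ⟨k, rfl⟩ := hπs w
        exact (hpre L k).1 (h.symm ▸ k.2)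
      intro w hw
      obtain ⟨k, rfl⟩ := hπs w
      exact ⟨k, hpre₀ ((hpre L k).2 hw), rfl⟩
    · intro U hU hDU hcU w hw
      obtain ⟨k, rfl⟩ := hπs w
      have hker : IsPGroup p π.ker := by
        rw [QuotientGroup.ker_mk']
        exact (P.isPGroup.to_le hZ₀D).comap_subtype
      refine ⟨k, P.mem_of_normalizer (pre U) ((hpreK U).trans P.le_M)
        ((hU.comap_of_ker_isPGroup π hker).map _)
        (fun z hz => (hpre U ⟨z, P.D_le hz⟩).2 (hDU ⟨⟨z, P.D_le hz⟩, hz, rfl⟩))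
        ((hpre U cK).2 hcU) k (P.le_M k.2) (mem_normalizer_of_conj_le fun z hz => ?_), rfl⟩
      refine (hpre U (k * ⟨z, hpreK U hz⟩ * k⁻¹)).2 ?_
      rw [map_mul, map_mul, map_inv]
      exact conj_mem_of_normalizer hw ((hpre U ⟨z, hpreK U hz⟩).1 hz)
    · rintro _ ⟨k, hk, rfl⟩
      refine mem_normalizer_of_conj_le ?_
      rintro _ ⟨x, hx, rfl⟩
      rw [← map_inv, ← map_mul, ← map_mul]
      exact ⟨k * x * k⁻¹, Subgroup.mem_subgroupOf.2 (conj_mem_of_normalizer (hM₀X hk)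
        (Subgroup.mem_subgroupOf.1 hx)), rfl⟩
    · intro U hU hXU
      have hYle : Y ≤ pre U := by
        rw [hY]
        refine sup_le (hEZ.trans (hpreZ U)) ((Subgroup.closure_le _).2 ?_)
        rintro _ ⟨k, hk, x, hx, rfl⟩
        exact conj_mem_of_normalizer (hpren U hU hk)
          ((hpre U ⟨x, hBK (hXB hx)⟩).2 (hXU ⟨⟨x, hBK (hXB hx)⟩, hx, rfl⟩))
      rintro _ ⟨k, hk, rfl⟩
      exact (hpre U k).1 (hYle hk)
  obtain ⟨τ, e, hτ, he, ⟨_, ⟨v, hv, rfl⟩, _, ⟨u, hu, rfl⟩, hv1, hvp, hup, hcv, hcu, htv, htu⟩,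
    ⟨_, f, ⟨x, hxX, rfl⟩, hxV, hx1, hf, htx⟩⟩ := hconf.exists_torus hp
  obtain ⟨g, hg, rfl⟩ := hτ
  obtain ⟨n, hn⟩ := exists_pow_coprime_orderOf (p := p) (isOfFinOrder_of_finite (g : G))
  have hxp : π x ^ p = 1 := by
    obtain ⟨z, hz, hzx⟩ := hxV
    have := hconf.isPGroup_Y
    haveI := hconf.normal_V
    by_contra hne
    let U : Subgroup (K ⧸ Z₀.subgroupOf K) :=
      { carrier := {w | w ∈ im Z₁ ∧ w ^ p = 1}
        one_mem' := ⟨one_mem _, one_pow _⟩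
        mul_mem' := fun {w w'} hw hw' => ⟨mul_mem hw.1 hw'.1, by
          haveI := hconf.comm_Y
          have hcom : Commute w w' := congrArg Subtype.val
            (mul_comm' (⟨w, hconf.V_le hw.1⟩ : im Y) ⟨w', hconf.V_le hw'.1⟩)
          rw [hcom.mul_pow, hw.2, hw'.2, one_mul]⟩
        inv_mem' := fun {w} hw => ⟨inv_mem hw.1, by rw [inv_pow, hw.2, inv_one]⟩ }
    have hU : U.Normal := ⟨fun w hw k => ⟨hconf.normal_V.conj_mem w hw.1 k, by
      rw [conj_pow, hw.2]; simp⟩⟩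
    rcases hconf.irr U hU (fun w hw => hw.1) with h | h
    · exact hv1 (Subgroup.mem_bot.1 (h ▸ (⟨⟨v, hv, rfl⟩, hvp⟩ : π v ∈ U)))
    · exact hne (h.symm ▸ (⟨z, hz, hzx⟩ : π x ∈ im Z₁) : π x ∈ U).2
  have key : ∀ {w : K} {e : (ZMod p)ˣ}, π w ^ p = 1 →
      π g * π w * (π g)⁻¹ = π w ^ (e : ZMod p).val →
      ((w : G) ^ (e : ZMod p).val)⁻¹ * ((g : G) ^ p ^ n * (w : G) * ((g : G) ^ p ^ n)⁻¹) ∈ Z₀ := by
    intro w e hw h
    have h1 := conj_pow_eigen hw h (p ^ n)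
    rw [ZMod.pow_card_pow, ← map_pow, ← map_inv, ← map_mul, ← map_mul, ← map_pow] at h1
    exact Subgroup.mem_subgroupOf.1 (QuotientGroup.eq.1 h1.symm)
  have hgK : (g : G) ^ p ^ n ∈ K := pow_mem g.2 _
  have hf' : ∀ z : (ZMod p)ˣ, z ∈ Subgroup.zpowers f := by
    rcases hf with rfl | rfl
    · exact he
    · rw [Subgroup.zpowers_inv]; exact he
  refine ⟨Z₀, Z₁, c, (g : G) ^ p ^ n, v, u, x, e, f, ?_⟩
  exact
    { Z₀_le := hZlt.le
      Z₁_le := hZ₁Y.trans (hYB.trans dt.le_Q)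
      Z₁_norm := hZ₁Y.trans (hYB.trans (hBK.trans hKZ))
      c_norm := hKZ P.mem_K
      c_mem := P.mem_S
      t_norm := hKZ hgK
      t_norm' := hKZ₁ hgK
      t_mem := pow_mem hg _
      t_coprime := hn
      e_gen := he
      f_gen := hf'
      v_mem := hv
      u_mem := hu
      v_not := fun h => hv1 (hone h)
      v_pow := Subgroup.mem_subgroupOf.1 ((QuotientGroup.eq_one_iff (v ^ p)).1 hvp)
      u_pow := Subgroup.mem_subgroupOf.1 ((QuotientGroup.eq_one_iff (u ^ p)).1 hup)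
      comm := hEZ (by
        have h := dt.commutator_mem _ (inv_mem (hYB (hZ₁Y hu))) _
          (inv_mem (dt.le_Q (hYB (hZ₁Y hv))))
        rwa [show (((v : G) * u)⁻¹ * ((u : G) * v)) = ⁅(u : G)⁻¹, (v : G)⁻¹⁆ by
          rw [commutatorElement_def]; group])
      c_v := Subgroup.mem_subgroupOf.1 (QuotientGroup.eq.1
        (show π v = π (cK * v * cK⁻¹) by rw [map_mul, map_mul, map_inv, hcv]))
      c_u := Subgroup.mem_subgroupOf.1 (QuotientGroup.eq.1
        (show π (v * u) = π (cK * u * cK⁻¹) by rw [map_mul, map_mul, map_mul, map_inv, hcu]))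
      t_v := key hvp htv
      t_u := key hup htu
      x_mem := by
        have h : (x : G) ∈ X := hxX
        rw [hX] at h
        exact hW ▸ h.2
      x_mem' := (hmemim hZlt.le x).1 hxV
      x_not := fun h => hx1 (hone h)
      x_pow := Subgroup.mem_subgroupOf.1 ((QuotientGroup.eq_one_iff (x ^ p)).1 hxp)
      t_x := key hxp htx }

end CfsgLib.ZJFailure
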